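import Cfsg.Agent.ThreeDegrees.Cases

/-!
# Three degrees: solvability
-/

set_option autoImplicit false
open Cfsg CfsgLib CfsgLib.Chars CfsgLib.Chars.Induced CfsgLib.ManzComponents
open scoped commutatorElement ComplexConjugate

noncomputable section

namespace CfsgLib.ThreeDegrees

universe u

variable {G : Type u} [Group G] [Fintype G]

/-- The conjugate of an irreducible character. -/
def conjChar (χ : IrrCharacter G) : IrrCharacter G :=
  ⟨fun g => conj ((χ : G → ℂ) g),
    isIrrCharacter_of_classInner_self (isCharacter_conj (isCharacter_coe χ)) (by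
      have h := congrArg conj (classInner_self χ)
      simp only [classInner, map_mul, map_sum, map_inv₀, map_natCast, map_one,
        starRingEnd_self_apply] at h ⊢
      convert h using 3)⟩

theorem conjChar_apply (χ : IrrCharacter G) (g : G) :
    (conjChar χ : G → ℂ) g = conj ((χ : G → ℂ) g) := rfl

theorem charDegree_conjChar (χ : IrrCharacter G) :
    charDegree (conjChar χ : G → ℂ) = charDegree (χ : G → ℂ) := by
  refine charDegree_eq_of_map_one ?_
  rw [conjChar_apply, conj_map_one (isCharacter_coe χ), coe_charDegree]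

theorem classInner_mul_left (f g h : G → ℂ) :
    classInner (f * g) h = classInner f (fun x => conj (g x) * h x) := by
  simp only [classInner, Pi.mul_apply, map_mul, starRingEnd_self_apply, mul_assoc]

/-- A linear character times an irreducible one. -/
def linMul (l χ : IrrCharacter G) (hl : charDegree (l : G → ℂ) = 1) : IrrCharacter G :=
  ⟨fun g => (l : G → ℂ) g * (χ : G → ℂ) g, by
    obtain ⟨u, hu⟩ := exists_monoidHom_of_map_one_eq_one (isCharacter_coe l)
      ((charDegree_eq_one_iff l).1 hl)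
    simp only [hu]
    exact isIrrCharacter_linear_mul χ.2 u⟩

theorem charDegree_linMul (l χ : IrrCharacter G) (hl : charDegree (l : G → ℂ) = 1) :
    charDegree (linMul l χ hl : G → ℂ) = charDegree (χ : G → ℂ) := by
  refine charDegree_eq_of_map_one ?_
  show (l : G → ℂ) 1 * (χ : G → ℂ) 1 = _
  rw [(charDegree_eq_one_iff l).1 hl, one_mul, coe_charDegree]

/-- A character without linear constituents has degree `s a + t b`. -/
theorem exists_degree_combination {a b : ℕ} (ha1 : a ≠ 1) (hb1 : b ≠ 1) (hab : a ≠ b)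
    (hcd : Degrees3 G a b) {C : G → ℂ} (hC : IsCharacter G C) {n : ℕ} (hn : C 1 = n)
    (hlin : ∀ l : IrrCharacter G, charDegree (l : G → ℂ) = 1 → classInner C (l : G → ℂ) = 0) :
    ∃ s t : ℕ, n = s * a + t * b ∧
      (∀ η : IrrCharacter G, classInner C (η : G → ℂ) ≠ 0 → charDegree (η : G → ℂ) = a → 0 < s) ∧
      (∀ η : IrrCharacter G, classInner C (η : G → ℂ) ≠ 0 → charDegree (η : G → ℂ) = b → 0 < t) := by
  classical
  obtain ⟨S, hmem, hS⟩ := exists_eq_sum_mult hC
  set A := S.filter fun η : IrrCharacter G => charDegree (η : G → ℂ) = a with hA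
  set B := S.filter fun η : IrrCharacter G => ¬ charDegree (η : G → ℂ) = a with hB
  refine ⟨∑ η ∈ A, mult C η, ∑ η ∈ B, mult C η, ?_, ?_, ?_⟩
  · apply Nat.cast_injective (R := ℂ)
    rw [← hn, congrFun hS 1, Finset.sum_apply, Finset.sum_mul, Finset.sum_mul, Nat.cast_add,
      Nat.cast_sum, Nat.cast_sum, ← Finset.sum_filter_add_sum_filter_not S
        (fun η : IrrCharacter G => charDegree (η : G → ℂ) = a)]
    congr 1 <;> refine Finset.sum_congr rfl fun η hη => ?_
    · rw [Finset.mem_filter] at hη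
      rw [Nat.cast_mul, ← hη.2, coe_charDegree]
      rfl
    · rw [Finset.mem_filter] at hη
      have hb : charDegree (η : G → ℂ) = b := by
        rcases hcd η with h | h | h
        · refine absurd ((mult_ne_zero_iff hC η).1 ((hmem η).1 hη.1)) (not_not.2 (hlin η h))
        · exact absurd h hη.2
        · exact h
      rw [Nat.cast_mul, ← hb, coe_charDegree]
      rfl
  · intro η h1 h2
    have h3 := (mult_ne_zero_iff hC η).2 h1
    have h4 : η ∈ A := Finset.mem_filter.2 ⟨(hmem η).2 h3, h2⟩
    exact lt_of_lt_of_le (Nat.pos_of_ne_zero h3)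
      (Finset.single_le_sum (f := fun η : IrrCharacter G => mult C η) (fun _ _ => Nat.zero_le _) h4)
  · intro η h1 h2
    have h3 := (mult_ne_zero_iff hC η).2 h1
    have h4 : η ∈ B := Finset.mem_filter.2
      ⟨(hmem η).2 h3, fun h : charDegree (η : G → ℂ) = a => hab (h.symm.trans h2)⟩
    exact lt_of_lt_of_le (Nat.pos_of_ne_zero h3)
      (Finset.single_le_sum (f := fun η : IrrCharacter G => mult C η) (fun _ _ => Nat.zero_le _) h4)

omit [Fintype G] in
theorem arith_mixed {a b s t : ℕ} (hco : a.Coprime b) (h : a * b = s * a + t * b) (hs : 0 < s) :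
    t = 0 := by
  have h1 : a ∣ t * b := (Nat.dvd_add_right (dvd_mul_left a s)).1 (h ▸ dvd_mul_right a b)
  have h2 := hco.dvd_of_dvd_mul_right h1
  rcases Nat.eq_zero_or_pos t with h3 | h3
  · exact h3
  have h4 := Nat.le_of_dvd h3 h2
  rcases Nat.eq_zero_or_pos a with h5 | h5
  · subst h5; simpa using h2
  nlinarith

omit [Fintype G] in
theorem arith_square {a b s t : ℕ} (hco : a.Coprime b) (hlt : a < b) (h : a * a = s * a + t * b) :
    t = 0 := by
  have h1 : a ∣ t * b := (Nat.dvd_add_right (dvd_mul_left a s)).1 (h ▸ dvd_mul_right a a)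
  have h2 := hco.dvd_of_dvd_mul_right h1
  rcases Nat.eq_zero_or_pos t with h3 | h3
  · exact h3
  have h4 := Nat.le_of_dvd h3 h2
  rcases Nat.eq_zero_or_pos a with h5 | h5
  · subst h5; simpa using h2
  nlinarith

/-- The product argument: a unique nonabelian minimal normal subgroup with abelian quotient is
impossible. -/
theorem product_trick {a b : ℕ} (hlt : a < b) (hco : a.Coprime b) (ha1 : a ≠ 1)
    (hcd : Degrees3 G a b)
    (χ₀ : IrrCharacter G) (hχ₀ : charDegree (χ₀ : G → ℂ) = a)
    (ψ₀ : IrrCharacter G) (hψ₀ : charDegree (ψ₀ : G → ℂ) = b)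
    (M : Subgroup G) [M.Normal] (hperf : ⁅M, M⁆ = M) (hGM : commutator G ≤ M)
    (hmin : ∀ R : Subgroup G, R.Normal → R ≠ ⊥ → M ≤ R) : False := by
  classical
  haveI := Fintype.ofFinite M
  have hb1 : b ≠ 1 := by
    have := charDegree_pos χ₀
    omega
  have hab : a ≠ b := hlt.ne
  have hlinM : ∀ l : IrrCharacter G, charDegree (l : G → ℂ) = 1 → ∀ x ∈ M, (l : G → ℂ) x = 1 := by
    intro l hl x hx
    have h1 : M ≤ commutator G := by
      rw [← hperf, commutator_def]
      exact Subgroup.commutator_mono le_top le_top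
    rw [map_eq_map_one_of_mem_charKer (commutator_le_charKer_of_degree l hl (h1 hx)),
      (charDegree_eq_one_iff l).1 hl]
  have hkerM : ∀ χ : IrrCharacter G, charDegree (χ : G → ℂ) ≠ 1 → ¬ M ≤ charKer (χ : G → ℂ) :=
    fun χ hχ h => hχ ((charDegree_eq_one_iff χ).2
      ((commutator_le_charKer_iff χ).1 (hGM.trans h)))
  have hfaith : ∀ χ : IrrCharacter G, charDegree (χ : G → ℂ) ≠ 1 →
      ∀ x : G, (χ : G → ℂ) x = (χ : G → ℂ) 1 → x = 1 := by
    intro χ hχ x hx
    have hbot : charKer (χ : G → ℂ) = ⊥ := by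
      by_contra h
      exact hkerM χ hχ (hmin _ (charKer_normal (isClassFunction_coe χ)) h)
    have h1 : x ∈ charKer (χ : G → ℂ) := (mem_charKer_iff (isCharacter_coe χ)).2 hx
    rwa [hbot, Subgroup.mem_bot] at h1
  -- products of two characters of degree `a` with a constituent of degree `b` have a linear one
  have hsq : ∀ χ₁ χ₂ ψ : IrrCharacter G, charDegree (χ₁ : G → ℂ) = a →
      charDegree (χ₂ : G → ℂ) = a → charDegree (ψ : G → ℂ) = b →
      classInner ((χ₁ : G → ℂ) * (χ₂ : G → ℂ)) ψ ≠ 0 →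
      ∃ l : IrrCharacter G, ∃ hl : charDegree (l : G → ℂ) = 1,
        χ₁ = linMul l (conjChar χ₂) hl := by
    intro χ₁ χ₂ ψ h1 h2 hψ hne
    have hC := isCharacter_mul (isCharacter_coe χ₁) (isCharacter_coe χ₂)
    have hex : ∃ l : IrrCharacter G, charDegree (l : G → ℂ) = 1 ∧
        classInner ((χ₁ : G → ℂ) * (χ₂ : G → ℂ)) l ≠ 0 := by
      by_contra h
      push Not at h
      obtain ⟨s, t, hst, -, ht⟩ := exists_degree_combination ha1 hb1 hab hcd hC (n := a * a)
        (by rw [Pi.mul_apply, ← coe_charDegree, ← coe_charDegree, h1, h2, Nat.cast_mul]) h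
      exact (ht ψ hne hψ).ne' (arith_square hco hlt hst)
    obtain ⟨l, hl, hlne⟩ := hex
    refine ⟨l, hl, ?_⟩
    by_contra hne'
    refine hlne ?_
    rw [classInner_mul_left]
    have := classInner_of_ne hne'
    rw [← this]
    congr 1
    funext x
    simp only [linMul, conjChar_apply]
    ring
  -- the first step
  have hnoB1 : ∀ χ ψ : IrrCharacter G, charDegree (χ : G → ℂ) = a → charDegree (ψ : G → ℂ) = b →
      classInner ((χ : G → ℂ) * (conjChar χ : G → ℂ)) ψ = 0 := by
    intro χ ψ hχ hψ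
    by_contra hne
    set C : G → ℂ := (χ : G → ℂ) * (ψ : G → ℂ) with hCdef
    have hC : IsCharacter G C := isCharacter_mul (isCharacter_coe χ) (isCharacter_coe ψ)
    have hC1 : C 1 = ((a * b : ℕ) : ℂ) := by
      rw [hCdef, Pi.mul_apply, ← coe_charDegree, ← coe_charDegree, hχ, hψ, Nat.cast_mul]
    have hlin : ∀ l : IrrCharacter G, charDegree (l : G → ℂ) = 1 → classInner C (l : G → ℂ) = 0 := by
      intro l hl
      rw [hCdef, classInner_mul_left, show (fun x => conj ((ψ : G → ℂ) x) * (l : G → ℂ) x) =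
        (linMul l (conjChar ψ) hl : G → ℂ) from funext fun x => by
          simp only [linMul, conjChar_apply]; ring]
      refine classInner_of_ne fun h => hab ?_
      rw [← hχ, h, charDegree_linMul, charDegree_conjChar, hψ]
    have hCχ : classInner C (χ : G → ℂ) ≠ 0 := by
      intro h0
      refine hne ?_
      have h1 : classInner ((χ : G → ℂ) * (conjChar χ : G → ℂ)) (ψ : G → ℂ) = conj (classInner C (χ : G → ℂ)) := by
        simp only [hCdef, classInner, Pi.mul_apply, map_mul, map_sum, map_inv₀, map_natCast,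
          conjChar_apply, starRingEnd_self_apply]
        congr 1
        exact Finset.sum_congr rfl fun x _ => by ring
      rw [h1, h0, map_zero]
    obtain ⟨s, t, hst, hs, ht⟩ := exists_degree_combination ha1 hb1 hab hcd hC hC1 hlin
    have ht0 := arith_mixed hco hst (hs χ hCχ hχ)
    obtain ⟨S, hmem, hS⟩ := exists_eq_sum_mult hC
    have hrest : ∀ η ∈ S, ∀ x ∈ M, (η : G → ℂ) x = (χ : G → ℂ) x := by
      intro η hη x hx
      have hη0 := (mult_ne_zero_iff hC η).1 ((hmem η).1 hη)
      have hηa : charDegree (η : G → ℂ) = a := by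
        rcases hcd η with h | h | h
        · exact absurd (hlin η h) hη0
        · exact h
        · exact absurd ht0 (ht η hη0 h).ne'
      have h2 : classInner ((η : G → ℂ) * (conjChar χ : G → ℂ)) (ψ : G → ℂ) ≠ 0 := by
        intro h0
        refine hη0 ?_
        have h1 : classInner C (η : G → ℂ) =
            conj (classInner ((η : G → ℂ) * (conjChar χ : G → ℂ)) (ψ : G → ℂ)) := by
          simp only [hCdef, classInner, Pi.mul_apply, map_mul, map_sum, map_inv₀, map_natCast,
            conjChar_apply, starRingEnd_self_apply]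
          congr 1
          exact Finset.sum_congr rfl fun x _ => by ring
        rw [h1, h0, map_zero]
      obtain ⟨l, hl, he⟩ := hsq η (conjChar χ) ψ hηa (by rw [charDegree_conjChar, hχ]) hψ h2
      rw [he]
      show (l : G → ℂ) x * conj (conj ((χ : G → ℂ) x)) = _
      rw [hlinM l hl x hx, one_mul, starRingEnd_self_apply]
    set m : ℂ := ∑ η ∈ S, (mult C η : ℂ) with hm
    have hCx : ∀ x ∈ M, C x = m * (χ : G → ℂ) x := by
      intro x hx
      rw [congrFun hS x, Finset.sum_apply, hm, Finset.sum_mul]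
      exact Finset.sum_congr rfl fun η hη => by rw [Pi.smul_apply, smul_eq_mul, hrest η hη x hx]
    have hmb : m = b := by
      have h1 := hCx 1 M.one_mem
      rw [hC1, ← coe_charDegree, hχ, Nat.cast_mul, mul_comm] at h1
      exact (mul_right_cancel₀ (Nat.cast_ne_zero.2 (by
        have := charDegree_pos χ
        omega)) h1).symm
    have hvan : ∀ x ∈ M, x ≠ 1 → (χ : G → ℂ) x = 0 := by
      intro x hx hx1
      have h1 := hCx x hx
      rw [hmb, hCdef, Pi.mul_apply, mul_comm (b : ℂ)] at h1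
      rcases mul_eq_mul_left_iff.1 h1 with h | h
      · refine absurd (hfaith ψ (by omega) x ?_) hx1
        rw [h, ← coe_charDegree, hψ]
      · exact h
    -- so the trivial character of `M` is below `χ`
    have hmult : mult (indFun M (fun _ => (1 : ℂ))) χ ≠ 0 := by
      intro h0
      have h1 := mult_indFun M (θ := fun _ => (1 : ℂ)) isCharacter_one χ
      rw [h0, Nat.cast_zero] at h1
      have h2 : classInner (fun _ : M => (1 : ℂ)) (fun h : M => (χ : G → ℂ) h) =
          ((Nat.card M : ℂ))⁻¹ * conj ((χ : G → ℂ) 1) := by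
        simp only [classInner, one_mul]
        congr 1
        rw [Finset.sum_eq_single (1 : M) (fun x _ hx => by
          rw [hvan x x.2 (fun h => hx (Subtype.ext h)), map_zero]) (fun h => absurd (Finset.mem_univ _) h)]
        rfl
      rw [h2, conj_map_one (isCharacter_coe χ)] at h1
      exact mul_ne_zero (inv_ne_zero (Nat.cast_ne_zero.2 Nat.card_pos.ne')) (map_one_ne_zero χ) h1.symm
    exact hkerM χ (by omega) (le_charKer_of_mult_indFun_one χ hmult M le_rfl)
  -- the second step
  have hnoB2 : ∀ χ₁ χ₂ ψ : IrrCharacter G, charDegree (χ₁ : G → ℂ) = a →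
      charDegree (χ₂ : G → ℂ) = a → charDegree (ψ : G → ℂ) = b →
      classInner ((χ₁ : G → ℂ) * (χ₂ : G → ℂ)) ψ = 0 := by
    intro χ₁ χ₂ ψ h1 h2 hψ
    by_contra hne
    obtain ⟨l, hl, he⟩ := hsq χ₁ χ₂ ψ h1 h2 hψ hne
    refine hne ?_
    have hl' : charDegree (conjChar l : G → ℂ) = 1 := by rw [charDegree_conjChar, hl]
    rw [← hnoB1 χ₂ (linMul (conjChar l) ψ hl') h2 (by rw [charDegree_linMul, hψ]), he]
    simp only [classInner, linMul, conjChar_apply, Pi.mul_apply, map_mul, starRingEnd_self_apply]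
    congr 1
    exact Finset.sum_congr rfl fun x _ => by ring
  -- powers
  have hpow : ∀ n : ℕ, ∀ ψ : IrrCharacter G, charDegree (ψ : G → ℂ) = b →
      classInner ((χ₀ : G → ℂ) ^ n) ψ = 0 ∧ IsCharacter G ((χ₀ : G → ℂ) ^ n) := by
    intro n
    induction n with
    | zero =>
      intro ψ hψ
      rw [pow_zero, ← show (oneChar G : G → ℂ) = 1 from funext fun x => by simp [oneChar_apply]]
      refine ⟨classInner_of_ne fun h => hb1 ?_, isCharacter_coe _⟩
      rw [← hψ, ← h]
      exact charDegree_eq_of_map_one (by simp [oneChar_apply])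
    | succ n ih =>
      intro ψ hψ
      have hn : IsCharacter G ((χ₀ : G → ℂ) ^ n) := (ih ψ hψ).2
      refine ⟨?_, by rw [pow_succ]; exact isCharacter_mul hn (isCharacter_coe χ₀)⟩
      obtain ⟨S, hmem, hS⟩ := exists_eq_sum_mult hn
      have he : (χ₀ : G → ℂ) ^ (n + 1) = ∑ η ∈ S,
          (mult ((χ₀ : G → ℂ) ^ n) η : ℂ) • ((η : G → ℂ) * (χ₀ : G → ℂ)) := by
        funext x
        rw [pow_succ, Pi.mul_apply, congrFun hS x, Finset.sum_apply, Finset.sum_apply, Finset.sum_mul]
        exact Finset.sum_congr rfl fun η _ => by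
          simp only [Pi.smul_apply, Pi.mul_apply, smul_eq_mul]; ring
      rw [he, Chars.classInner_sum_left]
      refine Finset.sum_eq_zero fun η hη => ?_
      rw [Chars.classInner_smul_left]
      refine mul_eq_zero_of_right _ ?_
      rcases hcd η with h | h | h
      · rw [show ((η : G → ℂ) * (χ₀ : G → ℂ)) = (linMul η χ₀ h : G → ℂ) from rfl]
        refine classInner_of_ne fun h' => hab ?_
        rw [← hψ, ← h', charDegree_linMul, hχ₀]
      · exact hnoB2 η χ₀ ψ h hχ₀ hψ
      · exact absurd (ih η h).1 ((mult_ne_zero_iff hn η).1 ((hmem η).1 hη))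
  -- a polynomial separating the identity
  set V : Finset ℂ := (Finset.univ.image (χ₀ : G → ℂ)).erase ((χ₀ : G → ℂ) 1) with hV
  set P : Polynomial ℂ := ∏ v ∈ V, (Polynomial.X - Polynomial.C v) with hP
  have hP0 : ∀ x : G, x ≠ 1 → P.eval ((χ₀ : G → ℂ) x) = 0 := by
    intro x hx
    rw [hP, Polynomial.eval_prod]
    refine Finset.prod_eq_zero (i := (χ₀ : G → ℂ) x) (Finset.mem_erase.2
      ⟨fun h => hx (hfaith χ₀ (by omega) x h), Finset.mem_image_of_mem _ (Finset.mem_univ x)⟩) ?_
    simp
  have hP1 : P.eval ((χ₀ : G → ℂ) 1) ≠ 0 := by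
    rw [hP, Polynomial.eval_prod, Finset.prod_ne_zero_iff]
    intro v hv
    simp only [Polynomial.eval_sub, Polynomial.eval_X, Polynomial.eval_C, sub_ne_zero]
    exact (Finset.mem_erase.1 hv).1.symm
  have h1 : classInner (fun x => P.eval ((χ₀ : G → ℂ) x)) (ψ₀ : G → ℂ) =
      (Nat.card G : ℂ)⁻¹ * (P.eval ((χ₀ : G → ℂ) 1) * conj ((ψ₀ : G → ℂ) 1)) := by
    simp only [classInner]
    rw [Finset.sum_eq_single (1 : G) (fun x _ hx => by rw [hP0 x hx, zero_mul])
      (fun h => absurd (Finset.mem_univ _) h)]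
  have h2 : (fun x => P.eval ((χ₀ : G → ℂ) x)) =
      ∑ i ∈ Finset.range (P.natDegree + 1), P.coeff i • (χ₀ : G → ℂ) ^ i := by
    funext x
    rw [Polynomial.eval_eq_sum_range, Finset.sum_apply]
    rfl
  rw [h2, Chars.classInner_sum_left, Finset.sum_eq_zero fun i _ => by
    rw [Chars.classInner_smul_left, (hpow i ψ₀ hψ₀).1, mul_zero], conj_map_one (isCharacter_coe ψ₀)] at h1
  exact mul_ne_zero (inv_ne_zero (Nat.cast_ne_zero.2 Nat.card_pos.ne'))
    (mul_ne_zero hP1 (map_one_ne_zero ψ₀)) h1.symm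

omit [Fintype G] in
/-- Degree one everywhere: abelian. -/
theorem mul_comm_of_linear [Finite G] (h : ∀ χ : IrrCharacter G, charDegree (χ : G → ℂ) = 1)
    (a b : G) : a * b = b * a := by
  haveI := Fintype.ofFinite G
  refine commutatorElement_eq_one_iff_mul_comm.1 (Subgroup.mem_bot.1 ?_)
  rw [← commutator_eq_bot_iff.2 fun χ : IrrCharacter G => (charDegree_eq_one_iff χ).1 (h χ)]
  exact Subgroup.commutator_mem_commutator (Subgroup.mem_top _) (Subgroup.mem_top _)

omit [Fintype G] in
theorem solvable_of_three : ∀ (n : ℕ) (G : Type u) [Group G] [Fintype G], Nat.card G = n →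
    ∀ a b : ℕ, Degrees3 G a b → Group.IsSolvable G := by
  intro n
  induction n using Nat.strong_induction_on with
  | _ n ih =>
  intro G _ _ hn a b hcd
  classical
  subst hn
  by_cases hp : ∃ p : ℕ, p.Prime ∧
      ∀ χ : IrrCharacter G, charDegree (χ : G → ℂ) ≠ 1 → p ∣ charDegree (χ : G → ℂ)
  · obtain ⟨p, hp, hdvd⟩ := hp
    haveI := Fact.mk hp
    obtain ⟨K, hKn, hKc, k, hKk⟩ := Chars.Apps.exists_normal_complement_of_dvd (p := p) hdvd
    haveI := hKn
    haveI := Fintype.ofFinite K
    rcases eq_or_ne K ⊤ with hK | hK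
    · have hco : (Nat.card G).Coprime p := by rwa [hK, Subgroup.card_top] at hKc
      refine Group.isSolvable_of_comm fun x y => mul_comm_of_linear (fun χ => ?_) x y
      by_contra h
      exact (Nat.Prime.coprime_iff_not_dvd hp).1 hco.symm ((hdvd χ h).trans (charDegree_dvd_card χ))
    have hKlt : Nat.card K < Nat.card G := lt_of_le_of_ne (Subgroup.card_le_card_group K)
      fun h => hK (Subgroup.eq_top_of_card_eq K h)
    have hcdK : ∃ a' b', Degrees3 K a' b' := by
      have huniq : ∀ d : ℕ, ∃ d' : ℕ, ∀ (ν : IrrCharacter K) (χ : IrrCharacter G),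
          mult (fun h : K => (χ : G → ℂ) h) ν ≠ 0 → charDegree (χ : G → ℂ) = d →
          charDegree (ν : K → ℂ) = d' := by
        intro d
        by_cases h : ∃ (ν : IrrCharacter K) (χ : IrrCharacter G),
            mult (fun h : K => (χ : G → ℂ) h) ν ≠ 0 ∧ charDegree (χ : G → ℂ) = d
        · obtain ⟨ν₀, χ₀, h0, hd0⟩ := h
          refine ⟨charDegree (ν₀ : K → ℂ), fun ν χ hν hd => ?_⟩
          have a1 := charDegree_dvd_of_mult χ ν hν
          have a2 := charDegree_dvd_mul_index χ ν hν
          have b1 := charDegree_dvd_of_mult χ₀ ν₀ h0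
          have b2 := charDegree_dvd_mul_index χ₀ ν₀ h0
          rw [hd] at a1 a2
          rw [hd0] at b1 b2
          rw [hKk] at a2 b2
          exact Nat.dvd_antisymm
            (((hKc.coprime_dvd_left (charDegree_dvd_card ν)).pow_right k).dvd_of_dvd_mul_right (a1.trans b2))
            (((hKc.coprime_dvd_left (charDegree_dvd_card ν₀)).pow_right k).dvd_of_dvd_mul_right (b1.trans a2))
        · exact ⟨0, fun ν χ hν hd => absurd ⟨ν, χ, hν, hd⟩ h⟩
      obtain ⟨a', ha'⟩ := huniq a
      obtain ⟨b', hb'⟩ := huniq b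
      refine ⟨a', b', fun ν => ?_⟩
      obtain ⟨χ, hχ⟩ := IsaacsPassman.exists_over K ν
      rcases hcd χ with h | h | h
      · exact Or.inl (Nat.dvd_one.1 (h ▸ charDegree_dvd_of_mult χ ν hχ))
      · exact Or.inr (Or.inl (ha' ν χ hχ h))
      · exact Or.inr (Or.inr (hb' ν χ hχ h))
    obtain ⟨a', b', hcdK⟩ := hcdK
    haveI := ih _ hKlt K rfl a' b' hcdK
    haveI : Group.IsNilpotent (G ⧸ K) :=
      (IsPGroup.of_card (p := p) (n := k) (by rw [← Subgroup.index_eq_card, hKk])).isNilpotent
    exact Group.isSolvable_of_ker_le_range K.subtype (QuotientGroup.mk' K)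
      (by rw [QuotientGroup.ker_mk', Subgroup.range_subtype])
  push Not at hp
  have hocc : ∀ d : ℕ, d ≠ 1 → (∀ χ : IrrCharacter G, charDegree (χ : G → ℂ) ≠ 1 →
      charDegree (χ : G → ℂ) = d) → False := by
    intro d hd h
    obtain ⟨p, hp', hpd⟩ := Nat.exists_prime_and_dvd hd
    obtain ⟨χ, hχ, hχp⟩ := hp p hp'
    exact hχp (h χ hχ ▸ hpd)
  obtain ⟨χa, hχa, ha1⟩ : ∃ χ : IrrCharacter G, charDegree (χ : G → ℂ) = a ∧ a ≠ 1 := by
    by_contra h
    push Not at h
    by_cases hb : b = 1
    · obtain ⟨χ, hχ, -⟩ := hp 2 Nat.prime_two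
      rcases hcd χ with h' | h' | h'
      · exact hχ h'
      · exact hχ (h'.trans (h χ h'))
      · exact hχ (h'.trans hb)
    · refine hocc b hb fun χ hχ => ?_
      rcases hcd χ with h' | h' | h'
      · exact absurd h' hχ
      · exact absurd (h'.trans (h χ h')) hχ
      · exact h'
  obtain ⟨χb, hχb, hb1⟩ : ∃ χ : IrrCharacter G, charDegree (χ : G → ℂ) = b ∧ b ≠ 1 := by
    by_contra h
    push Not at h
    refine hocc a ha1 fun χ hχ => ?_
    rcases hcd χ with h' | h' | h'
    · exact absurd h' hχ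
    · exact h'
    · exact absurd (h'.trans (h χ h')) hχ
  have hco : a.Coprime b := by
    by_contra h
    obtain ⟨p, hp', hpg⟩ := Nat.exists_prime_and_dvd h
    obtain ⟨χ, hχ, hχp⟩ := hp p hp'
    rcases hcd χ with h' | h' | h'
    · exact hχ h'
    · exact hχp (h' ▸ hpg.trans (Nat.gcd_dvd_left a b))
    · exact hχp (h' ▸ hpg.trans (Nat.gcd_dvd_right a b))
  by_contra hns
  have hquot : ∀ R : Subgroup G, R.Normal → R ≠ ⊥ → ∀ [Fintype (G ⧸ R)] [R.Normal],
      Group.IsSolvable (G ⧸ R) := by
    intro R _ hR _ _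
    refine ih _ ?_ (G ⧸ R) rfl a b (hcd.quotient R)
    rw [R.card_eq_card_quotient_mul_card_subgroup]
    exact lt_mul_of_one_lt_right Nat.card_pos ((Subgroup.one_lt_card_iff_ne_bot R).2 hR)
  obtain ⟨M, ⟨⟨hMn, hMne⟩, hMmin⟩⟩ : ∃ M : Subgroup G,
      Minimal (fun M : Subgroup G => M.Normal ∧ M ≠ ⊥) M := by
    refine Set.Finite.exists_minimal (Set.toFinite {M : Subgroup G | M.Normal ∧ M ≠ ⊥})
      ⟨⊤, inferInstance, fun h => hns ?_⟩
    refine Group.isSolvable_of_comm fun x y => ?_
    have hx : x ∈ (⊥ : Subgroup G) := h ▸ Subgroup.mem_top x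
    rw [Subgroup.mem_bot.1 hx, one_mul, mul_one]
  haveI := hMn
  haveI := Fintype.ofFinite (G ⧸ M)
  haveI hGMs : Group.IsSolvable (G ⧸ M) := hquot M hMn hMne
  have hperf : ⁅M, M⁆ = M := by
    rcases eq_or_ne ⁅M, M⁆ (⊥ : Subgroup G) with h | h
    · exfalso
      haveI : Group.IsSolvable M := Group.isSolvable_of_comm fun x y => Subtype.ext
        (commutatorElement_eq_one_iff_mul_comm.1
          (Subgroup.mem_bot.1 (h ▸ Subgroup.commutator_mem_commutator x.2 y.2)))
      exact hns (Group.isSolvable_of_ker_le_range M.subtype (QuotientGroup.mk' M)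
        (by rw [QuotientGroup.ker_mk', Subgroup.range_subtype]))
    · exact le_antisymm (Subgroup.commutator_le_left M M)
        (hMmin ⟨inferInstance, h⟩ (Subgroup.commutator_le_left M M))
  have hmin : ∀ R : Subgroup G, R.Normal → R ≠ ⊥ → M ≤ R := by
    intro R hR hRne
    haveI := hR
    by_contra hle
    haveI := Fintype.ofFinite (G ⧸ R)
    haveI := hquot R hR hRne
    have hbot : R ⊓ M = ⊥ := by
      by_contra h
      exact hle (le_trans (hMmin ⟨inferInstance, h⟩ inf_le_right) inf_le_left)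
    refine hns (Group.isSolvable_of_isSolvable_injective
      (f := (QuotientGroup.mk' R).prod (QuotientGroup.mk' M)) ?_)
    rw [← MonoidHom.ker_eq_bot_iff, MonoidHom.ker_prod, QuotientGroup.ker_mk', QuotientGroup.ker_mk', hbot]
  by_cases hab : ∀ x y : G ⧸ M, x * y = y * x
  · have hGM : commutator G ≤ M := Subgroup.Normal.quotient_commutative_iff_commutator_le.1 ⟨⟨hab⟩⟩
    have hne : a ≠ b := fun h => ha1 (by rw [← Nat.coprime_self a]; exact h ▸ hco)
    rcases lt_or_gt_of_ne hne with hlt | hlt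
    · exact product_trick hlt hco ha1 hcd χa hχa χb hχb M hperf hGM hmin
    · exact product_trick hlt hco.symm hb1 hcd.symm χb hχb χa hχa M hperf hGM hmin
  rcases exists_quotient hab with ⟨p, K, hKn, hp', hpg, hna⟩ |
    ⟨q, N, hNn, lam, hq, hcomm, hNt, hlam, hlq, hfpf⟩
  · haveI := hKn
    set K' : Subgroup G := K.comap (QuotientGroup.mk' M) with hK'
    obtain ⟨h1, -⟩ := p_dvd_all hp' K' (fun g => by
        obtain ⟨k, hk⟩ := hpg ((g : G ⧸ M) : (G ⧸ M) ⧸ K)
        refine ⟨k, ?_⟩
        rw [← QuotientGroup.mk_pow, QuotientGroup.eq_one_iff] at hk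
        show ((g ^ p ^ k : G) : G ⧸ M) ∈ K
        rwa [QuotientGroup.mk_pow]) (by
        push Not at hna
        obtain ⟨x, y, hxy⟩ := hna
        obtain ⟨x, rfl⟩ := QuotientGroup.mk'_surjective K x
        obtain ⟨y, rfl⟩ := QuotientGroup.mk'_surjective K y
        obtain ⟨x, rfl⟩ := QuotientGroup.mk'_surjective M x
        obtain ⟨y, rfl⟩ := QuotientGroup.mk'_surjective M y
        refine ⟨x, y, fun h => hxy (commutatorElement_eq_one_iff_mul_comm.1 ?_)⟩
        rw [← map_commutatorElement, ← map_commutatorElement, QuotientGroup.mk'_apply,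
          QuotientGroup.eq_one_iff]
        exact h) hcd
    obtain ⟨χ, hχ, hχp⟩ := hp p hp'
    exact hχp (h1 χ hχ)
  · haveI := hNn
    set N' : Subgroup G := N.comap (QuotientGroup.mk' M) with hN'
    let π : N' →* N := ((QuotientGroup.mk' M).comp N'.subtype).codRestrict N fun n => n.2
    have hπ : Function.Surjective π := by
      intro m
      obtain ⟨g, hg⟩ := QuotientGroup.mk'_surjective M (m : G ⧸ M)
      exact ⟨⟨g, by rw [hN', Subgroup.mem_comap, hg]; exact m.2⟩, Subtype.ext hg⟩
    have hcj : ∀ (g : G) (n : N'), π (cj N' g n) = cj N (g : G ⧸ M) (π n) := fun g n => Subtype.ext (by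
      show ((g * (n : G) * g⁻¹ : G) : G ⧸ M) = _
      rw [QuotientGroup.mk_mul, QuotientGroup.mk_mul, QuotientGroup.mk_inv]
      rfl)
    refine hns ⟨⟨3, frobenius_case hq (lam.comp π) (fun x y => ?_) ?_ ?_ (fun n => ?_) ?_ hcd (Or.inr hco)⟩⟩
    · show ((x * y * x⁻¹ * y⁻¹ : G) : G ⧸ M) ∈ N
      simp only [QuotientGroup.mk_mul, QuotientGroup.mk_inv]
      exact hcomm _ _
    · intro h
      refine hNt (eq_top_iff.2 fun z _ => ?_)
      obtain ⟨z, rfl⟩ := QuotientGroup.mk'_surjective M z
      exact (show z ∈ N' from h ▸ Subgroup.mem_top z)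
    · intro h
      refine hlam (MonoidHom.ext fun z => ?_)
      obtain ⟨z, rfl⟩ := hπ z
      exact DFunLike.congr_fun h z
    · exact hlq (π n)
    · intro g hg μ hμ hfix
      have hker : π.ker ≤ μ.ker := fun n hn => MonoidHom.mem_ker.2 (hμ n
        (by rw [MonoidHom.comp_apply, MonoidHom.mem_ker.1 hn, map_one])
        fun x => by rw [MonoidHom.comp_apply, hcj, MonoidHom.mem_ker.1 hn, map_one, map_one])
      set μ' : N →* ℂˣ := π.liftOfSurjective hπ ⟨μ, hker⟩ with hμ'
      have he : ∀ n : N', μ' (π n) = μ n := fun n =>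
        π.liftOfRightInverse_comp_apply _ (Function.rightInverse_surjInv hπ) ⟨μ, hker⟩ n
      have h1 : μ' = 1 := hfpf (g : G ⧸ M) hg μ' (fun m h1 h2 => by
          obtain ⟨n, rfl⟩ := hπ m
          rw [he]
          exact hμ n h1 fun x => by rw [MonoidHom.comp_apply, hcj]; exact h2 _)
        fun m => by
          obtain ⟨n, rfl⟩ := hπ m
          rw [← hcj, he, he, hfix]
      refine MonoidHom.ext fun n => ?_
      rw [← he, h1]
      rfl

/-- Three character degrees: derived length at most three. -/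
theorem derivedSeries_three_of_degrees {a b : ℕ} (hcd : Degrees3 G a b) :
    derivedSeries G 3 = ⊥ := by
  classical
  haveI : Group.IsSolvable G := solvable_of_three _ G rfl a b hcd
  by_cases hab : ∀ x y : G, x * y = y * x
  · refine derivedSeries_three_eq_bot (N := (⊤ : Subgroup G)) le_top ?_
    have h : ⁅(⊤ : Subgroup G), (⊤ : Subgroup G)⁆ = ⊥ := by
      rw [eq_bot_iff, Subgroup.commutator_le]
      exact fun x _ y _ => Subgroup.mem_bot.2 (commutatorElement_eq_one_iff_mul_comm.2 (hab x y))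
    rw [h, Subgroup.commutator_bot_left]
  rcases exists_quotient hab with ⟨p, K, hKn, hp', hpg, hna⟩ |
    ⟨q, N, hNn, lam, hq, hcomm, hNt, hlam, hlq, hfpf⟩
  · haveI := hKn
    obtain ⟨hdvd, α, χ, hα, hχ⟩ := p_dvd_all hp' K (fun g => by
        obtain ⟨k, hk⟩ := hpg (g : G ⧸ K)
        exact ⟨k, (QuotientGroup.eq_one_iff _).1 (by rw [QuotientGroup.mk_pow]; exact hk)⟩) (by
        push Not at hna
        obtain ⟨x, y, hxy⟩ := hna
        obtain ⟨x, rfl⟩ := QuotientGroup.mk'_surjective K x
        obtain ⟨y, rfl⟩ := QuotientGroup.mk'_surjective K y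
        refine ⟨x, y, fun h => hxy (commutatorElement_eq_one_iff_mul_comm.1 ?_)⟩
        rw [← map_commutatorElement, QuotientGroup.mk'_apply, QuotientGroup.eq_one_iff]
        exact h) hcd
    rcases hcd χ with h | h | h
    · exact absurd (hχ.symm.trans h) (Nat.one_lt_pow hα hp'.one_lt).ne'
    · exact pgroup_case (α := α) (e := b) hp' hdvd (by rw [← hχ, h]; exact hcd)
    · exact pgroup_case (α := α) (e := a) hp' hdvd (by rw [← hχ, h]; exact hcd.symm)
  · haveI := hNn
    exact frobenius_case hq lam hcomm hNt hlam hlq hfpf hcd (Or.inl inferInstance)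

end CfsgLib.ThreeDegrees
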