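import Cfsg.Agent.ThreeDegrees.Relative
import Cfsg.Agent.Chars.Apps.MonomialGroups
import Cfsg.Agent.ManzComponents.Main

/-!
# Three degrees: the two shapes of a maximal non-abelian quotient
-/

set_option autoImplicit false
open Cfsg CfsgLib CfsgLib.Chars CfsgLib.Chars.Induced CfsgLib.ManzComponents
open scoped commutatorElement

noncomputable section

namespace CfsgLib.ThreeDegrees

universe u

variable {G : Type u} [Group G] [Fintype G]

/-- All degrees are among `1`, `a`, `b`. -/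
def Degrees3 (G : Type u) [Group G] (a b : ℕ) : Prop :=
  ∀ χ : IrrCharacter G, charDegree (χ : G → ℂ) = 1 ∨ charDegree (χ : G → ℂ) = a ∨
    charDegree (χ : G → ℂ) = b

omit [Fintype G] in
theorem Degrees3.symm {a b : ℕ} (h : Degrees3 G a b) : Degrees3 G b a := fun χ => by
  rcases h χ with h | h | h
  · exact Or.inl h
  · exact Or.inr (Or.inr h)
  · exact Or.inr (Or.inl h)

omit [Fintype G] in
theorem Degrees3.quotient [Finite G] {a b : ℕ} (h : Degrees3 G a b) (R : Subgroup G) [R.Normal] :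
    Degrees3 (G ⧸ R) a b := fun χ => by rw [← charDegree_inflate R χ]; exact h _

/-- In a Frobenius-type quotient the prime is prime to the index. -/
theorem not_dvd_index_of_fpf {N : Subgroup G} [N.Normal] {q : ℕ} (hq : q.Prime)
    (lam : N →* ℂˣ) (hlam : lam ≠ 1) (hlq : ∀ n, lam n ^ q = 1)
    (hfpf : ∀ g : G, g ∉ N → ∀ μ : N →* ℂˣ,
      (∀ n, lam n = 1 → (∀ g, lam (cj N g n) = 1) → μ n = 1) →
      (∀ n, μ (cj N g n) = μ n) → μ = 1) : ¬ q ∣ N.index := by
  classical
  intro hdvd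
  haveI := Fact.mk hq
  haveI := Fintype.ofFinite N
  rw [Subgroup.index_eq_card] at hdvd
  obtain ⟨x, hx⟩ := exists_prime_orderOf_dvd_card' q hdvd
  obtain ⟨g0, rfl⟩ := QuotientGroup.mk'_surjective N x
  obtain ⟨i, m, hm, him⟩ := Nat.exists_eq_pow_mul_and_not_dvd (orderOf_pos g0).ne' q hq.ne_one
  set g : G := g0 ^ m with hg
  have hgN : g ∉ N := by
    intro h
    rw [← QuotientGroup.eq_one_iff, hg, QuotientGroup.mk_pow, ← orderOf_dvd_iff_pow_eq_one] at h
    exact hm (hx ▸ h)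
  have hgq : IsPGroup q (Subgroup.zpowers g) := by
    refine IsPGroup.of_card (n := i) ?_
    rw [Nat.card_zpowers, hg, orderOf_pow' g0 (fun h : m = 0 => hm (by rw [h]; exact dvd_zero q)), him,
      Nat.gcd_mul_left_left,
      Nat.mul_div_cancel _ (Nat.pos_of_ne_zero fun h : m = 0 => hm (by rw [h]; exact dvd_zero q))]
  haveI : Finite (N →* ℂˣ) :=
    Nat.finite_of_card_ne_zero (by rw [card_monoidHom_units]; exact Subgroup.index_ne_zero_of_finite)
  let T : Subgroup (N →* ℂˣ) :=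
    { carrier := {μ | ∀ n, lam n = 1 → (∀ g, lam (cj N g n) = 1) → μ n = 1}
      one_mem' := fun n _ _ => rfl
      mul_mem' := fun {a b} ha hb n h1 h2 => by rw [MonoidHom.mul_apply, ha n h1 h2, hb n h1 h2, one_mul]
      inv_mem' := fun {a} ha n h1 h2 => by rw [MonoidHom.inv_apply, ha n h1 h2, inv_one] }
  have hlamT : lam ∈ T := fun n h _ => h
  have hTq : IsPGroup q T := fun μ => ⟨1, by
    apply Subtype.ext
    ext n
    have h : (μ : N →* ℂˣ) (n ^ q) = 1 := μ.2 (n ^ q)
      (by rw [map_pow, hlq]) fun g => by rw [map_pow, map_pow, hlq]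
    rw [map_pow] at h
    simpa using congrArg Units.val h⟩
  let act : ∀ (k : Subgroup.zpowers g), T → T := fun k μ =>
    ⟨(μ : N →* ℂˣ).comp (cj N (k : G)⁻¹), fun n h1 h2 => μ.2 _ (h2 _) fun x => by
      rw [← cj_mul]; exact h2 _⟩
  letI : MulAction (Subgroup.zpowers g) T :=
    { smul := act
      one_smul := fun μ => Subtype.ext (MonoidHom.ext fun n => by
        show (μ : N →* ℂˣ) (cj N ((1 : Subgroup.zpowers g) : G)⁻¹ n) = _
        congr 1
        exact Subtype.ext (by simp [cj]))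
      mul_smul := fun k l μ => Subtype.ext (MonoidHom.ext fun n => by
        show (μ : N →* ℂˣ) (cj N ((k * l : Subgroup.zpowers g) : G)⁻¹ n) =
          (μ : N →* ℂˣ) (cj N (l : G)⁻¹ (cj N (k : G)⁻¹ n))
        rw [← cj_mul, Subgroup.coe_mul, mul_inv_rev]) }
  have hcard : q ∣ Nat.card T := by
    obtain ⟨k, hk⟩ := IsPGroup.iff_card.1 hTq
    rcases k with _ | k
    · rw [pow_zero, Subgroup.card_eq_one] at hk
      exact absurd (Subgroup.mem_bot.1 (hk ▸ hlamT)) hlam
    · rw [hk]; exact dvd_pow_self q (Nat.succ_ne_zero k)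
  have hone : (1 : T) ∈ MulAction.fixedPoints (Subgroup.zpowers g) T := fun k =>
    Subtype.ext (MonoidHom.ext fun n => rfl)
  obtain ⟨μ, hμ, hμ1⟩ := hgq.exists_fixed_point_of_prime_dvd_card_of_fixed_point T hcard hone
  refine hμ1 (Subtype.ext ((hfpf g hgN μ μ.2 fun n => ?_)).symm)
  have h := congrArg Subtype.val (hμ ⟨g⁻¹, (Subgroup.zpowers g).inv_mem (Subgroup.mem_zpowers g)⟩)
  have h2 := DFunLike.congr_fun h n
  change (μ : N →* ℂˣ) (cj N (g⁻¹)⁻¹ n) = (μ : N →* ℂˣ) n at h2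
  rwa [inv_inv] at h2

/-- Linear constituents: the derived subgroup of `N` is in the kernel. -/
theorem commutator_le_charKer_of_constituent {N : Subgroup G} [N.Normal] [Fintype N]
    (χ : IrrCharacter G) (θ : IrrCharacter N) (hθ : mult (fun n : N => (χ : G → ℂ) n) θ ≠ 0)
    (h1 : charDegree (θ : N → ℂ) = 1) : ⁅N, N⁆ ≤ charKer (χ : G → ℂ) := by
  classical
  rw [← Subgroup.map_subtype_commutator]
  rintro _ ⟨n, hn, rfl⟩
  refine (mem_charKer_iff (isCharacter_coe χ)).2 ?_
  have hcl := clifford χ θ hθ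
  have e1 : ((1 : N) : G) = 1 := rfl
  rw [← e1, show (χ : G → ℂ) (N.subtype n) = _ from congrFun hcl n,
    show (χ : G → ℂ) ((1 : N) : G) = _ from congrFun hcl 1]
  simp only [Pi.smul_apply, Finset.sum_apply]
  refine congrArg _ (Finset.sum_congr rfl fun η hη => ?_)
  obtain ⟨x, rfl⟩ := (Set.Finite.mem_toFinset _).1 hη
  refine map_eq_map_one_of_mem_charKer ((commutator_le_charKer_iff (conjIrr x θ)).2 ?_ hn)
  rw [← (charDegree_eq_one_iff θ).1 h1]
  simp [conjIrr, conjFun]

/-- The Frobenius case. -/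
theorem frobenius_case {N : Subgroup G} [N.Normal] {q : ℕ} (hq : q.Prime) (lam : N →* ℂˣ)
    (hcomm : ∀ a b : G, a * b * a⁻¹ * b⁻¹ ∈ N) (hN : N ≠ ⊤) (hlam : lam ≠ 1)
    (hlq : ∀ n, lam n ^ q = 1)
    (hfpf : ∀ g : G, g ∉ N → ∀ μ : N →* ℂˣ,
      (∀ n, lam n = 1 → (∀ g, lam (cj N g n) = 1) → μ n = 1) →
      (∀ n, μ (cj N g n) = μ n) → μ = 1)
    {a b : ℕ} (hcd : Degrees3 G a b) (hs : Group.IsSolvable G ∨ a.Coprime b) :
    derivedSeries G 3 = ⊥ := by
  classical
  haveI := Fintype.ofFinite N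
  have hf1 : N.index ≠ 1 := fun h => hN (Subgroup.index_eq_one.1 h)
  have hqf : ¬ q ∣ N.index := not_dvd_index_of_fpf hq lam hlam hlq hfpf
  have hmul : ∀ θ : IrrCharacter N, ¬ q ∣ charDegree (θ : N → ℂ) →
      ∃ χ : IrrCharacter G, charDegree (χ : G → ℂ) = N.index * charDegree (θ : N → ℂ) :=
    fun θ h => exists_degree_index_mul hcomm hq lam hlam hlq hfpf θ h
  have h11 : charDegree (oneChar N : N → ℂ) = 1 := charDegree_eq_of_map_one (by simp [oneChar_apply])
  obtain ⟨χf, hχf⟩ := hmul (oneChar N) (by rw [h11]; exact hq.not_dvd_one)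
  rw [h11, mul_one] at hχf
  obtain ⟨e, hcd', hs'⟩ : ∃ e, Degrees3 G N.index e ∧ (Group.IsSolvable G ∨ N.index.Coprime e) := by
    rcases hcd χf with h | h | h
    · exact absurd (hχf.symm.trans h) hf1
    · exact ⟨b, by rw [← hχf, h]; exact hcd, by rw [← hχf, h]; exact hs⟩
    · exact ⟨a, by rw [← hχf, h]; exact hcd.symm, by rw [← hχf, h]; exact hs.imp id Nat.Coprime.symm⟩
  set f := N.index with hf
  refine derivedSeries_three_eq_bot (N := N) ?_ ?_
  · rw [commutator_def, Subgroup.commutator_le]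
    exact fun x _ y _ => by rw [commutatorElement_def]; exact hcomm x y
  have hdv1 : ∀ (θ : IrrCharacter N) (χ : IrrCharacter G),
      mult (fun n : N => (χ : G → ℂ) n) θ ≠ 0 → charDegree (χ : G → ℂ) = 1 →
      charDegree (θ : N → ℂ) = 1 := fun θ χ hm h =>
    Nat.dvd_one.1 (h ▸ charDegree_dvd_of_mult χ θ hm)
  by_cases hA : ∀ θ : IrrCharacter N, charDegree (θ : N → ℂ) = 1 ∨ q ∣ charDegree (θ : N → ℂ)
  · have hf' : ∀ (θ : IrrCharacter N) (χ : IrrCharacter G),
        mult (fun n : N => (χ : G → ℂ) n) θ ≠ 0 → charDegree (χ : G → ℂ) = f →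
        charDegree (θ : N → ℂ) = 1 := fun θ χ hm h =>
      (hA θ).resolve_right fun hd => hqf (hd.trans (h ▸ charDegree_dvd_of_mult χ θ hm))
    rcases hs' with hs' | hs'
    · refine relative _ G rfl hs' N q e hq ((Nat.Prime.coprime_iff_not_dvd hq).2 hqf).symm hA
        fun χ hχ => ?_
      obtain ⟨θ, hθ⟩ := exists_mult_restrict_ne_zero (N := N) χ
      rcases hcd' χ with h | h | h
      · exact absurd (commutator_le_charKer_of_constituent χ θ hθ (hdv1 θ χ hθ h)) hχ
      · exact absurd (commutator_le_charKer_of_constituent χ θ hθ (hf' θ χ hθ h)) hχ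
      · exact h
    · refine metabelian_of_degrees N (m := e) fun θ => ?_
      obtain ⟨χ, hχ⟩ := IsaacsPassman.exists_over N θ
      rcases hcd' χ with h | h | h
      · exact Or.inl (hdv1 θ χ hχ h)
      · exact Or.inl (hf' θ χ hχ h)
      · right
        have h1 := charDegree_dvd_of_mult χ θ hχ
        have h2 := charDegree_dvd_mul_index χ θ hχ
        rw [h] at h1 h2
        exact Nat.dvd_antisymm h1 (hs'.symm.dvd_of_dvd_mul_right h2)
  · push Not at hA
    obtain ⟨θ₀, hθ1, hθq⟩ := hA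
    obtain ⟨χ₀, hχ₀⟩ := hmul θ₀ hθq
    have he : e = f * charDegree (θ₀ : N → ℂ) := by
      rcases hcd' χ₀ with h | h | h
      · rw [hχ₀] at h; exact absurd (mul_eq_one.1 h).2 hθ1
      · rw [hχ₀] at h
        exact absurd (Nat.eq_of_mul_eq_mul_left (Nat.pos_of_ne_zero Subgroup.index_ne_zero_of_finite)
          (h.trans (mul_one f).symm)) hθ1
      · rw [← hχ₀, h]
    have hqe : ¬ q ∣ e := by
      rw [he, hq.dvd_mul]
      tauto
    refine metabelian_of_degrees N (m := charDegree (θ₀ : N → ℂ)) fun θ => ?_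
    obtain ⟨χ, hχ⟩ := IsaacsPassman.exists_over N θ
    have hθ : ¬ q ∣ charDegree (θ : N → ℂ) := fun hd => by
      have hd' := hd.trans (charDegree_dvd_of_mult χ θ hχ)
      rcases hcd' χ with h | h | h <;> rw [h] at hd'
      · exact hq.not_dvd_one hd'
      · exact hqf hd'
      · exact hqe hd'
    obtain ⟨χ', hχ'⟩ := hmul θ hθ
    rcases hcd' χ' with h | h | h
    · rw [hχ'] at h; exact Or.inl (mul_eq_one.1 h).2
    · rw [hχ'] at h
      exact Or.inl (Nat.eq_of_mul_eq_mul_left (Nat.pos_of_ne_zero Subgroup.index_ne_zero_of_finite)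
        (h.trans (mul_one f).symm))
    · rw [hχ', he] at h
      exact Or.inr (Nat.eq_of_mul_eq_mul_left (Nat.pos_of_ne_zero Subgroup.index_ne_zero_of_finite) h)

/-- A nonabelian `p`-quotient forces `p` into every nonlinear degree. -/
theorem p_dvd_all {p : ℕ} (hp : p.Prime) (K : Subgroup G) [K.Normal]
    (hpg : ∀ g : G, ∃ k : ℕ, g ^ p ^ k ∈ K) (hna : ∃ x y : G, ⁅x, y⁆ ∉ K)
    {a b : ℕ} (hcd : Degrees3 G a b) :
    (∀ χ : IrrCharacter G, charDegree (χ : G → ℂ) ≠ 1 → p ∣ charDegree (χ : G → ℂ)) ∧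
      ∃ (α : ℕ) (χ : IrrCharacter G), α ≠ 0 ∧ charDegree (χ : G → ℂ) = p ^ α := by
  classical
  haveI := Fintype.ofFinite (G ⧸ K)
  haveI := Fintype.ofFinite K
  haveI := Fact.mk hp
  have hQp : IsPGroup p (G ⧸ K) := by
    intro x
    obtain ⟨g, rfl⟩ := QuotientGroup.mk'_surjective K x
    obtain ⟨k, hk⟩ := hpg g
    exact ⟨k, by rw [← map_pow]; exact (QuotientGroup.eq_one_iff _).2 hk⟩
  obtain ⟨β, hβ⟩ : ∃ β : IrrCharacter (G ⧸ K), charDegree (β : G ⧸ K → ℂ) ≠ 1 := by
    by_contra! h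
    obtain ⟨x, y, hxy⟩ := hna
    have hbot : commutator (G ⧸ K) = ⊥ :=
      commutator_eq_bot_iff.2 fun ψ => (charDegree_eq_one_iff ψ).1 (h ψ)
    refine hxy ((QuotientGroup.eq_one_iff _).1 ?_)
    rw [← Subgroup.mem_bot, ← hbot, ← QuotientGroup.mk'_apply, map_commutatorElement]
    exact Subgroup.commutator_mem_commutator (Subgroup.mem_top _) (Subgroup.mem_top _)
  obtain ⟨n, hn⟩ := IsPGroup.iff_card.1 hQp
  obtain ⟨α, -, hα⟩ := (Nat.dvd_prime_pow hp).1 (hn ▸ charDegree_dvd_card β)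
  have hα0 : α ≠ 0 := fun h => hβ (by rw [hα, h, pow_zero])
  refine ⟨fun χ hχ => ?_, α, inflate K β, hα0, by rw [charDegree_inflate, hα]⟩
  by_contra hpd
  obtain ⟨θ, hθ⟩ := exists_restrict_eq hp (N := K) (k := n)
    (by rw [Subgroup.index_eq_card]; exact hn) χ hpd
  have hd : charDegree ((⟨_, gallagher_isIrrCharacter χ θ hθ β⟩ : IrrCharacter G) : G → ℂ) =
      charDegree (χ : G → ℂ) * charDegree (β : G ⧸ K → ℂ) := by
    refine charDegree_eq_of_map_one ?_
    push_cast
    rw [coe_charDegree, coe_charDegree]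
    show (χ : G → ℂ) 1 * (β : G ⧸ K → ℂ) ((1 : G) : G ⧸ K) = _
    rw [QuotientGroup.mk_one]
  have h1 := hcd (⟨_, gallagher_isIrrCharacter χ θ hθ β⟩ : IrrCharacter G)
  rw [hd] at h1
  have h2 := hcd χ
  have h3 := hcd (inflate K β)
  rw [charDegree_inflate] at h3
  have hpos := charDegree_pos χ
  have hne : charDegree (χ : G → ℂ) ≠ charDegree (β : G ⧸ K → ℂ) := fun h =>
    hpd (by rw [h, hα]; exact dvd_pow_self p hα0)
  have hgt : 1 < charDegree (β : G ⧸ K → ℂ) := by
    have := charDegree_pos β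
    omega
  have hlt1 : charDegree (χ : G → ℂ) < charDegree (χ : G → ℂ) * charDegree (β : G ⧸ K → ℂ) :=
    lt_mul_of_one_lt_right hpos hgt
  have hlt2 : charDegree (β : G ⧸ K → ℂ) < charDegree (χ : G → ℂ) * charDegree (β : G ⧸ K → ℂ) :=
    lt_mul_of_one_lt_left (by omega) (by omega)
  omega

/-- `p` divides every nonlinear degree and is itself the base of one. -/
theorem pgroup_case {p α : ℕ} (hp : p.Prime)
    (hdvd : ∀ χ : IrrCharacter G, charDegree (χ : G → ℂ) ≠ 1 → p ∣ charDegree (χ : G → ℂ))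
    {e : ℕ} (hcd : Degrees3 G (p ^ α) e) : derivedSeries G 3 = ⊥ := by
  classical
  haveI := Fact.mk hp
  obtain ⟨H, hHn, hHc, k, hHk⟩ := Chars.Apps.exists_normal_complement_of_dvd (p := p) hdvd
  haveI := hHn
  haveI := Fintype.ofFinite H
  haveI := Fintype.ofFinite (G ⧸ H)
  have hnu : ∀ (ν : IrrCharacter H) (χ : IrrCharacter G),
      mult (fun h : H => (χ : G → ℂ) h) ν ≠ 0 →
      charDegree (ν : H → ℂ) ∣ charDegree (χ : G → ℂ) ∧
      charDegree (χ : G → ℂ) ∣ charDegree (ν : H → ℂ) * p ^ k ∧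
      (charDegree (ν : H → ℂ)).Coprime p := fun ν χ hm =>
    ⟨charDegree_dvd_of_mult χ ν hm, hHk ▸ charDegree_dvd_mul_index χ ν hm,
      hHc.coprime_dvd_left (charDegree_dvd_card ν)⟩
  have hnu1 : ∀ (ν : IrrCharacter H) (χ : IrrCharacter G),
      mult (fun h : H => (χ : G → ℂ) h) ν ≠ 0 → charDegree (χ : G → ℂ) ≠ e →
      charDegree (ν : H → ℂ) = 1 := by
    intro ν χ hm hne
    obtain ⟨h1, -, h3⟩ := hnu ν χ hm
    rcases hcd χ with h | h | h
    · exact Nat.dvd_one.1 (h ▸ h1)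
    · exact Nat.Coprime.eq_one_of_dvd (h3.pow_right α) (h ▸ h1)
    · exact absurd h hne
  by_cases hHab : ∀ ν : IrrCharacter H, charDegree (ν : H → ℂ) = 1
  swap
  · push Not at hHab
    obtain ⟨ν₀, hν₀⟩ := hHab
    obtain ⟨χ₀, hχ₀⟩ := IsaacsPassman.exists_over H ν₀
    have he₀ : charDegree (χ₀ : G → ℂ) = e := by
      by_contra h
      exact hν₀ (hnu1 ν₀ χ₀ hχ₀ h)
    obtain ⟨a1, a2, a3⟩ := hnu ν₀ χ₀ hχ₀
    rw [he₀] at a1 a2
    have hH2 : TwoDegrees.Degrees H (charDegree (ν₀ : H → ℂ)) := by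
      intro ν
      obtain ⟨χ, hχ⟩ := IsaacsPassman.exists_over H ν
      by_cases hne : charDegree (χ : G → ℂ) = e
      · obtain ⟨b1, b2, b3⟩ := hnu ν χ hχ
        rw [hne] at b1 b2
        right
        exact Nat.dvd_antisymm ((b3.pow_right k).dvd_of_dvd_mul_right (b1.trans a2))
          ((a3.pow_right k).dvd_of_dvd_mul_right (a1.trans b2))
      · exact Or.inl (hnu1 ν χ hχ hne)
    set H1 : Subgroup G := ⁅H, H⁆ with hH1
    haveI : H1.Normal := inferInstance
    haveI := Fintype.ofFinite (G ⧸ H1)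
    haveI := Fintype.ofFinite (⊤ : Subgroup (G ⧸ H1))
    have hQ : TwoDegrees.Degrees (G ⧸ H1) (p ^ α) := by
      intro ψ
      rcases hcd (inflate H1 ψ) with h | h | h
      · exact Or.inl h
      · exact Or.inr h
      exfalso
      obtain ⟨ν, hν⟩ := exists_mult_restrict_ne_zero (N := H) (inflate H1 ψ)
      have hlin : charDegree (ν : H → ℂ) = 1 := (charDegree_eq_one_iff ν).2
        ((commutator_le_charKer_iff ν).1 fun x hx => mem_charKer_constituent _ ν hν
          (le_charKer_inflate H1 ψ (by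
            rw [hH1, ← Subgroup.map_subtype_commutator]; exact ⟨x, hx, rfl⟩)))
      obtain ⟨-, b2, -⟩ := hnu ν _ hν
      rw [h, hlin, one_mul] at b2
      exact hν₀ (Nat.Coprime.eq_one_of_dvd (a3.pow_right k) (a1.trans b2))
    have h2 : ⁅commutator G, commutator G⁆ ≤ H1 := by
      have h3 := metabelian_of_degrees (⊤ : Subgroup (G ⧸ H1)) (m := p ^ α) fun θ => by
        have h4 := hQ ((irrEquiv (Subgroup.topEquiv (G := G ⧸ H1)).symm).symm θ)
        rwa [show charDegree (((irrEquiv (Subgroup.topEquiv (G := G ⧸ H1)).symm).symm θ :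
          IrrCharacter (G ⧸ H1)) : G ⧸ H1 → ℂ) = charDegree (θ : (⊤ : Subgroup (G ⧸ H1)) → ℂ) from by
            rw [← charDegree_irrEquiv (Subgroup.topEquiv (G := G ⧸ H1)).symm, Equiv.apply_symm_apply]] at h4
      rw [← QuotientGroup.ker_mk' H1, ← Subgroup.map_eq_bot_iff, eq_bot_iff, ← h3, commutator_def,
        Subgroup.map_commutator, Subgroup.map_commutator,
        Subgroup.map_top_of_surjective _ (QuotientGroup.mk'_surjective H1)]
    rw [derivedSeries_three_eq, eq_bot_iff, ← metabelian_of_degrees H hH2]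
    exact Subgroup.commutator_mono h2 h2
  -- `H` is abelian
  have hHcomm : ∀ x : H, ∀ y : H, x * y = y * x := by
    intro x y
    have h := commutator_eq_bot_iff.2 fun ν : IrrCharacter H => (charDegree_eq_one_iff ν).1 (hHab ν)
    refine commutatorElement_eq_one_iff_mul_comm.1 (Subgroup.mem_bot.1 ?_)
    rw [← h]
    exact Subgroup.commutator_mem_commutator (Subgroup.mem_top _) (Subgroup.mem_top _)
  obtain ⟨lo, hi, hlo, hlohi, hcd2⟩ : ∃ lo hi : ℕ, 1 ≤ lo ∧ lo ≤ hi ∧ Degrees3 G lo hi := by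
    have hcd1 : Degrees3 G (p ^ α) (max 1 e) := fun χ => by
      have := charDegree_pos χ
      rcases hcd χ with h | h | h
      · exact Or.inl h
      · exact Or.inr (Or.inl h)
      · exact Or.inr (Or.inr (by omega))
    have h1 : 1 ≤ p ^ α := Nat.one_le_pow _ _ hp.pos
    rcases le_total (p ^ α) (max 1 e) with h | h
    · exact ⟨_, _, h1, h, hcd1⟩
    · exact ⟨_, _, le_max_left _ _, h, hcd1.symm⟩
  have hnil : Group.IsNilpotent (G ⧸ H) := by
    have hP : IsPGroup p (G ⧸ H) := IsPGroup.of_card (n := k) (by rw [← Subgroup.index_eq_card, hHk])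
    exact hP.isNilpotent
  have hmono := Chars.Apps.isMonomialFun_of_isNilpotent _ (G ⧸ H) hnil rfl
  have hcdP := hcd2.quotient H
  set D2 : Subgroup (G ⧸ H) := ⁅commutator (G ⧸ H), commutator (G ⧸ H)⁆ with hD2
  have hstep1 : ∀ η : IrrCharacter (G ⧸ H), charDegree (η : G ⧸ H → ℂ) ≤ lo →
      D2 ≤ charKer (η : G ⧸ H → ℂ) := fun η hη =>
    taketa_step η (hmono η) _ fun ξ hξ => commutator_le_charKer_of_degree ξ (by
      rcases hcdP ξ with h | h | h <;> omega)
  have hstep2 : ⁅D2, D2⁆ = (⊥ : Subgroup (G ⧸ H)) := by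
    rw [eq_bot_iff, ← iInf_charKer_eq_bot]
    refine le_iInf fun η => taketa_step η (hmono η) D2 fun ξ hξ => ?_
    rcases hcdP ξ with h | h | h
    · exact le_trans (Subgroup.commutator_le_left _ _) (commutator_le_charKer_of_degree ξ h)
    · exact hstep1 ξ h.le
    · refine hstep1 ξ ?_
      rcases hcdP η with h' | h' | h' <;> omega
  set D : Subgroup G := ⁅commutator G, commutator G⁆ with hD
  haveI : D.Normal := inferInstance
  have hDmap : D.map (QuotientGroup.mk' H) = D2 := by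
    rw [hD, hD2, commutator_def, commutator_def, Subgroup.map_commutator, Subgroup.map_commutator,
      Subgroup.map_top_of_surjective _ (QuotientGroup.mk'_surjective H)]
  have hDD : ⁅D, D⁆ ≤ H := by
    rw [← QuotientGroup.ker_mk' H, ← Subgroup.map_eq_bot_iff, Subgroup.map_commutator, hDmap, hstep2]
  have hker : ∀ η : IrrCharacter G, charDegree (η : G → ℂ) ≤ lo → H ≤ charKer (η : G → ℂ) →
      D ≤ charKer (η : G → ℂ) := by
    intro η hη hH x hx
    obtain ⟨ψ, rfl⟩ := exists_inflate_eq H η hH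
    refine (mem_charKer_iff (isCharacter_coe _)).2 ?_
    rw [inflate_apply, inflate_apply, QuotientGroup.mk_one]
    exact map_eq_map_one_of_mem_charKer (hstep1 ψ (by rwa [charDegree_inflate] at hη)
      (hDmap ▸ ⟨x, hx, rfl⟩))
  have hcent : ∀ x ∈ D, ∀ h ∈ H, x * h = h * x := by
    intro x hx h hh
    set h' : H := ⟨x * h * x⁻¹, hHn.conj_mem h hh x⟩ with hh'
    have hconj : IsConj h' (⟨h, hh⟩ : H) := isConj_of_forall_eq fun θ => by
      obtain ⟨χ, hχ⟩ := IsaacsPassman.exists_over H θ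
      have hle : D ≤ inertia H (θ : H → ℂ) := le_of_constituents _ _ fun η hη hm => by
        refine hker η ?_ (le_charKer_of_mult_indFun_one η hm H
          (le_inertia (isClassFunction_coe θ)))
        have := inertia_index_le χ θ hχ
        rcases hcd2 η with h1 | h1 | h1 <;> rcases hcd2 χ with h2 | h2 | h2 <;>
          have := charDegree_pos η <;> omega
      exact mem_inertia_iff_forall.1 (hle hx) ⟨h, hh⟩ h' (by simp [hh'])
    obtain ⟨c, hc⟩ := isConj_iff.1 hconj
    rw [hHcomm c h', mul_inv_cancel_right] at hc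
    have := congrArg Subtype.val hc
    simp only [hh'] at this
    calc x * h = x * h * x⁻¹ * x := by group
      _ = h * x := by rw [this]
  rw [derivedSeries_three_eq, ← hD, eq_bot_iff, Subgroup.commutator_le]
  intro x hx y hy
  set c : G := ⁅x, y⁆ with hc
  have hcH : c ∈ H := hDD (Subgroup.commutator_mem_commutator hx hy)
  have hxy : x * y * x⁻¹ = c * y := by rw [hc, commutatorElement_def]; group
  have hpow : ∀ n : ℕ, x ^ n * y * (x ^ n)⁻¹ = c ^ n * y := by
    intro n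
    induction n with
    | zero => simp
    | succ n ih =>
      have hxc : x * c ^ n = c ^ n * x := hcent x hx _ (pow_mem hcH n)
      calc x ^ (n + 1) * y * (x ^ (n + 1))⁻¹ = x * (x ^ n * y * (x ^ n)⁻¹) * x⁻¹ := by
            rw [pow_succ']; group
        _ = (x * c ^ n) * y * x⁻¹ := by rw [ih]; group
        _ = c ^ n * (x * y * x⁻¹) := by rw [hxc]; group
        _ = c ^ (n + 1) * y := by rw [hxy, pow_succ]; group
  have hxH : x ^ p ^ k ∈ H := hHk ▸ H.pow_index_mem x
  have h1 := hpow (p ^ k)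
  rw [← hcent y hy _ hxH, mul_inv_cancel_right] at h1
  have h2 : c ^ p ^ k = 1 := mul_right_cancel (h1.symm.trans (one_mul y).symm)
  refine Subgroup.mem_bot.2 (orderOf_eq_one_iff.1 ?_)
  refine Nat.eq_one_of_dvd_coprimes (hHc.pow_right k) ?_ (orderOf_dvd_of_pow_eq_one h2)
  rw [← Subgroup.orderOf_mk c hcH]
  exact orderOf_dvd_natCard _

end CfsgLib.ThreeDegrees
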