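import Cfsg.Agent.Chars.TwoDegrees.Main
import Cfsg.Agent.Chars.Induced.Ito
import Cfsg.Agent.Chars.IsaacsPassman.Basic

/-!
# Degree lemmas for groups with three character degrees
-/

set_option autoImplicit false
open Cfsg CfsgLib CfsgLib.Chars CfsgLib.Chars.Induced
open scoped commutatorElement

noncomputable section

namespace CfsgLib.ThreeDegrees

universe u

variable {G : Type u} [Group G] [Fintype G]

/-- A constituent of a restriction inherits the kernel. -/
theorem mem_charKer_constituent {H : Subgroup G} [Fintype H] (χ : IrrCharacter G)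
    (θ : IrrCharacter H) (hθ : mult (fun h : H => (χ : G → ℂ) h) θ ≠ 0) {h : H}
    (hh : (h : G) ∈ charKer (χ : G → ℂ)) : h ∈ charKer (θ : H → ℂ) := by
  classical
  obtain ⟨s, hmem, hs⟩ := exists_eq_sum_mult (isCharacter_restrict (isCharacter_coe χ) H)
  have hnn : ∀ η ∈ s, (0 : ℝ) ≤ (mult (fun h : H => (χ : G → ℂ) h) η : ℝ) *
      (((η : H → ℂ) 1).re - ((η : H → ℂ) h).re) := by
    intro η _
    refine mul_nonneg (Nat.cast_nonneg _) (sub_nonneg.2 ?_)
    refine (Complex.re_le_norm _).trans ((norm_apply_le (isCharacter_coe η) h).trans ?_)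
    rw [← coe_charDegree, Complex.norm_natCast, Complex.natCast_re]
  have hsum : ∑ η ∈ s, (mult (fun h : H => (χ : G → ℂ) h) η : ℝ) *
      (((η : H → ℂ) 1).re - ((η : H → ℂ) h).re) = 0 := by
    have h1 : ∀ x : H, ((χ : G → ℂ) x).re =
        ∑ η ∈ s, (mult (fun h : H => (χ : G → ℂ) h) η : ℝ) * ((η : H → ℂ) x).re := by
      intro x
      rw [show (χ : G → ℂ) x = _ from congrFun hs x, Finset.sum_apply, Complex.re_sum]
      exact Finset.sum_congr rfl fun η _ => by simp
    simp only [mul_sub, Finset.sum_sub_distrib, ← h1]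
    rw [map_eq_map_one_of_mem_charKer hh]
    simp
  have h0 := (Finset.sum_eq_zero_iff_of_nonneg hnn).1 hsum θ ((hmem θ).2 hθ)
  rcases mul_eq_zero.1 h0 with h0 | h0
  · exact absurd (Nat.cast_eq_zero.1 h0) hθ
  refine (mem_charKer_iff (isCharacter_coe θ)).2 ?_
  have hn := norm_apply_le (isCharacter_coe θ) h
  rw [← coe_charDegree θ, Complex.norm_natCast] at hn
  rw [← coe_charDegree θ, Complex.natCast_re, sub_eq_zero] at h0
  have him : ((θ : H → ℂ) h).im = 0 := by
    by_contra hne
    have := (Complex.abs_re_lt_norm (z := (θ : H → ℂ) h)).2 hne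
    rw [← h0, Nat.abs_cast] at this
    linarith
  rw [← coe_charDegree θ]
  apply Complex.ext <;> simp [← h0, him]

/-- Degrees of a normal subgroup divide degrees above. -/
theorem charDegree_dvd_of_mult {N : Subgroup G} [N.Normal] [Fintype N] (χ : IrrCharacter G)
    (θ : IrrCharacter N) (hθ : mult (fun n : N => (χ : G → ℂ) n) θ ≠ 0) :
    charDegree (θ : N → ℂ) ∣ charDegree (χ : G → ℂ) :=
  ⟨mult (fun n : N => (χ : G → ℂ) n) θ * (inertia N (θ : N → ℂ)).index, by
    apply Nat.cast_injective (R := ℂ)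
    push_cast
    rw [coe_charDegree, coe_charDegree, clifford_one χ θ hθ]
    ring⟩

/-- The inertia index is at most the degree above. -/
theorem inertia_index_le {N : Subgroup G} [N.Normal] [Fintype N] (χ : IrrCharacter G)
    (θ : IrrCharacter N) (hθ : mult (fun n : N => (χ : G → ℂ) n) θ ≠ 0) :
    (inertia N (θ : N → ℂ)).index ≤ charDegree (χ : G → ℂ) := by
  refine Nat.le_of_dvd (charDegree_pos χ) ⟨mult (fun n : N => (χ : G → ℂ) n) θ *
    charDegree (θ : N → ℂ), ?_⟩
  apply Nat.cast_injective (R := ℂ)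
  push_cast
  rw [coe_charDegree, coe_charDegree, clifford_one χ θ hθ]
  ring

omit [Fintype G] in
/-- Linear characters kill the derived subgroup. -/
theorem commutator_le_charKer_of_degree [Finite G] (χ : IrrCharacter G)
    (h : charDegree (χ : G → ℂ) = 1) : commutator G ≤ charKer (χ : G → ℂ) := by
  haveI := Fintype.ofFinite G
  exact (commutator_le_charKer_iff χ).2 ((charDegree_eq_one_iff χ).1 h)

/-- A normal subgroup inside `H` is in the kernel of every constituent of `1_H^G`. -/
theorem le_charKer_of_mult_indFun_one {H : Subgroup G} (η : IrrCharacter G)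
    (hη : mult (indFun H (fun _ => (1 : ℂ))) η ≠ 0) (N : Subgroup G) [N.Normal] (hN : N ≤ H) :
    N ≤ charKer (η : G → ℂ) := by
  classical
  haveI := Fintype.ofFinite H
  haveI := Fintype.ofFinite N
  have hone : (fun _ : H => (1 : ℂ)) = (oneChar H : H → ℂ) := funext fun h => by simp [oneChar_apply]
  rw [hone, mult_indFun_irr] at hη
  have hN1 : mult (fun n : N => (η : G → ℂ) n) (oneChar N) ≠ 0 := by
    have h2 := mult_mul_mult_le_restrict (Subgroup.inclusion hN)
      (isCharacter_restrict (isCharacter_coe η) H) (oneChar H) (oneChar N)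
    have h3 : mult (fun n : N => (oneChar H : H → ℂ) (Subgroup.inclusion hN n)) (oneChar N) = 1 := by
      rw [show (fun n : N => (oneChar H : H → ℂ) (Subgroup.inclusion hN n)) = (oneChar N : N → ℂ) from
        funext fun n => by simp [oneChar_apply], mult_irr, if_pos rfl]
    rw [h3, mul_one] at h2
    have h4 : mult (fun n : N => (η : G → ℂ) ((Subgroup.inclusion hN n : H) : G)) (oneChar N) =
        mult (fun n : N => (η : G → ℂ) n) (oneChar N) := rfl
    rw [h4] at h2
    omega
  refine (le_charKer_iff (isCharacter_coe η)).2 fun x hx => ?_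
  have hc : ∀ n : N, (η : G → ℂ) n = (η : G → ℂ) (1 : N) := by
    intro n
    have h5 := clifford η (oneChar N) hN1
    rw [show (η : G → ℂ) n = _ from congrFun h5 n, show (η : G → ℂ) ((1 : N) : G) = _ from congrFun h5 1]
    simp only [Pi.smul_apply, Finset.sum_apply]
    refine congrArg _ (Finset.sum_congr rfl fun ξ hξ => ?_)
    obtain ⟨y, rfl⟩ := (Set.Finite.mem_toFinset _).1 hξ
    simp [conjFun, oneChar_apply]
  exact hc ⟨x, hx⟩

/-- If all small constituents of `1_H^G` kill the normal subgroup `D` then `D ≤ H`. -/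
theorem le_of_constituents (H D : Subgroup G)
    (hη : ∀ η : IrrCharacter G, charDegree (η : G → ℂ) < H.index →
      mult (indFun H (fun _ => (1 : ℂ))) η ≠ 0 → D ≤ charKer (η : G → ℂ)) : D ≤ H := by
  classical
  haveI := Fintype.ofFinite H
  set π : G → ℂ := indFun H (fun _ => (1 : ℂ)) with hπ
  have hc : IsCharacter G π := isCharacter_indFun H isCharacter_one
  have hπ1 : π 1 = H.index := by rw [hπ, indFun_one_apply, mul_one]
  obtain ⟨s, hmem, hs⟩ := exists_eq_sum_mult hc
  have hone : mult π (oneChar G) = 1 := by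
    apply Nat.cast_injective (R := ℂ)
    have h1 := mult_indFun H (θ := fun _ => (1 : ℂ)) isCharacter_one (oneChar G)
    rw [← hπ] at h1
    rw [h1, show (fun h : H => (oneChar G : G → ℂ) h) = (oneChar H : H → ℂ) from
        funext fun h => by simp [oneChar_apply],
      show (fun _ : H => (1 : ℂ)) = (oneChar H : H → ℂ) from
        funext fun h => by simp [oneChar_apply], classInner_irr_self, Nat.cast_one]
  have hsum : H.index = ∑ η ∈ s, mult π η * charDegree (η : G → ℂ) := by
    apply Nat.cast_injective (R := ℂ)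
    rw [← hπ1, congrFun hs 1, Finset.sum_apply, Nat.cast_sum]
    refine Finset.sum_congr rfl fun η _ => ?_
    rw [Nat.cast_mul, coe_charDegree η]
    rfl
  have h0 : oneChar G ∈ s := (hmem _).2 (by rw [hone]; exact one_ne_zero)
  have hall : ∀ η ∈ s, D ≤ charKer (η : G → ℂ) := by
    intro η hη'
    by_cases h1 : η = oneChar G
    · subst h1
      exact fun x _ => mem_charKer.2 fun y => by simp [oneChar_apply]
    refine hη η ?_ ((hmem η).1 hη')
    have hsub : ({η, oneChar G} : Finset (IrrCharacter G)) ⊆ s := by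
      intro z hz
      rcases Finset.mem_insert.1 hz with e | e
      · exact e ▸ hη'
      · exact Finset.mem_singleton.1 e ▸ h0
    have hpair : ∑ z ∈ ({η, oneChar G} : Finset (IrrCharacter G)),
        mult π z * charDegree (z : G → ℂ) ≤ ∑ z ∈ s, mult π z * charDegree (z : G → ℂ) :=
      Finset.sum_le_sum_of_subset_of_nonneg hsub fun _ _ _ => Nat.zero_le _
    rw [Finset.sum_pair h1, hone, one_mul, ← hsum, charDegree_eq_of_map_one (n := 1)
      (show (oneChar G : G → ℂ) 1 = (1 : ℕ) by simp [oneChar_apply])] at hpair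
    have hge : charDegree (η : G → ℂ) ≤ mult π η * charDegree (η : G → ℂ) :=
      Nat.le_mul_of_pos_left _ (Nat.pos_of_ne_zero ((hmem η).1 hη'))
    omega
  intro x hx
  by_contra hxH
  have h1 : π x = π 1 := by
    rw [hs]
    simp only [Finset.sum_apply, Pi.smul_apply, smul_eq_mul]
    exact Finset.sum_congr rfl fun η hη => by
      rw [map_eq_map_one_of_mem_charKer (hall η hη hx)]
  rw [hπ1, hπ] at h1
  simp only [indFun] at h1
  have hb : ∀ y : G, extendByZero H (fun _ : H => (1 : ℂ)) y =
      ((if y ∈ H then 1 else 0 : ℕ) : ℂ) := fun y => by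
    by_cases hy : y ∈ H
    · rw [extendByZero_mem _ hy, if_pos hy, Nat.cast_one]
    · rw [extendByZero_notMem _ hy, if_neg hy, Nat.cast_zero]
  simp only [hb, ← Nat.cast_sum] at h1
  rw [inv_mul_eq_iff_eq_mul₀ (Nat.cast_ne_zero.2 Nat.card_pos.ne'), ← Nat.cast_mul,
    Subgroup.card_mul_index, Nat.cast_inj] at h1
  have h2 : ∑ y : G, (if y⁻¹ * x * y ∈ H then 1 else 0) < ∑ _y : G, 1 :=
    Finset.sum_lt_sum (fun y _ => by split_ifs <;> simp) ⟨1, Finset.mem_univ _, by simp [hxH]⟩
  rw [h1, Finset.sum_const, Finset.card_univ, smul_eq_mul, mul_one, Nat.card_eq_fintype_card] at h2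
  exact lt_irrefl _ h2

/-- The inductive step in Taketa's argument. -/
theorem taketa_step (χ : IrrCharacter G) (hχ : Chars.Apps.IsMonomialFun (χ : G → ℂ))
    (D : Subgroup G) [hDn : D.Normal]
    (hη : ∀ η : IrrCharacter G, charDegree (η : G → ℂ) < charDegree (χ : G → ℂ) →
      D ≤ charKer (η : G → ℂ)) : ⁅D, D⁆ ≤ charKer (χ : G → ℂ) := by
  classical
  obtain ⟨H, lam, hlam⟩ := hχ
  have : Fintype H := Fintype.ofFinite _
  have hdeg : charDegree (χ : G → ℂ) = H.index := by
    refine charDegree_eq_of_map_one ?_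
    rw [hlam, indFun_one_apply, map_one, Units.val_one, mul_one]
  have hDH : D ≤ H := le_of_constituents H D fun η h _ => hη η (hdeg ▸ h)
  rw [Subgroup.commutator_le]
  intro a ha b hb
  rw [mem_charKer_iff (isCharacter_coe χ), hlam]
  simp only [indFun]
  congr 1
  refine Finset.sum_congr rfl fun y _ => ?_
  have hc : ∀ z ∈ D, y⁻¹ * z * y ∈ D := fun z hz => by simpa using hDn.conj_mem z hz y⁻¹
  set a' : H := ⟨y⁻¹ * a * y, hDH (hc a ha)⟩
  set b' : H := ⟨y⁻¹ * b * y, hDH (hc b hb)⟩
  have hmem : y⁻¹ * ⁅a, b⁆ * y = ((a' * b' * a'⁻¹ * b'⁻¹ : H) : G) := by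
    simp only [a', b', Subgroup.coe_mul, Subgroup.coe_inv, commutatorElement_def]
    group
  rw [hmem, extendByZero_coe, mul_one, inv_mul_cancel,
    show (1 : G) = ((1 : H) : G) from rfl, extendByZero_coe]
  congr 1
  simp only [map_mul, map_inv, map_one]
  rw [mul_comm (lam a') (lam b'), mul_inv_cancel_right, mul_inv_cancel]

/-- Two degrees on a subgroup: its derived subgroup is abelian. -/
theorem metabelian_of_degrees (H : Subgroup G) [Fintype H] {m : ℕ}
    (h : TwoDegrees.Degrees H m) : ⁅⁅H, H⁆, ⁅H, H⁆⁆ = (⊥ : Subgroup G) := by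
  classical
  have hab : ∀ a ∈ commutator H, ∀ b ∈ commutator H, a * b = b * a := by
    by_cases hm : ∃ χ : IrrCharacter H, charDegree (χ : H → ℂ) ≠ 1
    · obtain ⟨χ, hχ⟩ := hm
      exact TwoDegrees.derived_abelian h ⟨χ, h.eq_of_ne_one hχ⟩ (h.eq_of_ne_one hχ ▸ hχ)
    · push Not at hm
      rw [commutator_eq_bot_iff.2 fun χ => (charDegree_eq_one_iff χ).1 (hm χ)]
      intro a ha b hb
      rw [Subgroup.mem_bot.1 ha, Subgroup.mem_bot.1 hb]
  rw [← Subgroup.map_subtype_commutator H, ← Subgroup.map_commutator, eq_bot_iff,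
    Subgroup.map_le_iff_le_comap]
  intro x hx
  have hb : ⁅commutator H, commutator H⁆ = (⊥ : Subgroup H) := by
    rw [eq_bot_iff, Subgroup.commutator_le]
    intro a ha b hb
    exact Subgroup.mem_bot.2 (commutatorElement_eq_one_iff_mul_comm.2 (hab a ha b hb))
  rw [hb, Subgroup.mem_bot] at hx
  simp [hx]

omit [Fintype G] in
theorem derivedSeries_three_eq : derivedSeries G 3 =
    ⁅⁅commutator G, commutator G⁆, ⁅commutator G, commutator G⁆⁆ := by
  simp only [derivedSeries_succ, derivedSeries_zero, commutator_def]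

/-- `G'''` vanishes above a metabelian subgroup containing `G'`. -/
theorem derivedSeries_three_eq_bot {N : Subgroup G} (hN : commutator G ≤ N)
    (h : ⁅⁅N, N⁆, ⁅N, N⁆⁆ = (⊥ : Subgroup G)) : derivedSeries G 3 = ⊥ := by
  rw [derivedSeries_three_eq, eq_bot_iff, ← h]
  exact Subgroup.commutator_mono (Subgroup.commutator_mono hN hN) (Subgroup.commutator_mono hN hN)

end CfsgLib.ThreeDegrees
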