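import Cfsg.Agent.ThreeDegrees.Common
import Cfsg.Agent.Chars.Apps.ThompsonComplement
import Cfsg.Agent.Chars.Induced.CentreIndex

/-!
# A single degree over the derived subgroup of a normal subgroup
-/

set_option autoImplicit false
open Cfsg CfsgLib CfsgLib.Chars CfsgLib.Chars.Induced
open scoped commutatorElement Pointwise

noncomputable section

namespace CfsgLib.ThreeDegrees

universe u

/-- Linear characters separate a proper normal subgroup from the derived subgroup. -/
theorem exists_linChar_nontrivial {R : Type u} [Group R] [Fintype R] {W : Subgroup R}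
    (h : ¬ W ≤ commutator R) : ∃ (l : R →* ℂˣ) (w : R), w ∈ W ∧ l w ≠ 1 := by
  obtain ⟨w, hw, hwR⟩ := SetLike.not_le_iff_exists.1 h
  obtain ⟨l, hl⟩ := exists_linChar_ne_one hwR
  refine ⟨l, w, hw, fun h1 => hl ?_⟩
  simp [h1]

variable {G : Type u} [Group G] [Fintype G]

/-- A normal `r`-subgroup `W` with `[W, W] = M` and a subgroup `X ⊇ M` supplementing it with
`X ∩ W = M`: some Sylow `r`-subgroup has a linear character not trivial on `W`, so that some
subgroup `R` of `r'`-index has one. -/
theorem exists_sylow_linear {r : ℕ} [Fact r.Prime] (W M X : Subgroup G) [W.Normal] [M.Normal]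
    (hW : IsPGroup r W) (hWW : ⁅W, W⁆ ≤ M) (hMW : M ≤ W) (hne : ¬ W ≤ M)
    (hMX : M ≤ X) (hsup : X ⊔ W = ⊤) (hinf : ∀ x ∈ X, x ∈ W → x ∈ M) :
    ∃ (R : Subgroup G) (l : R →* ℂˣ) (w : R), ¬ r ∣ R.index ∧ W ≤ R ∧ (w : G) ∈ W ∧ l w ≠ 1 := by
  classical
  obtain ⟨P⟩ : Nonempty (Sylow r X) := inferInstance
  set R0 : Subgroup G := (P : Subgroup X).map X.subtype with hR0
  have hR0X : R0 ≤ X := Subgroup.map_subtype_le _
  have hR0p : IsPGroup r R0 := P.isPGroup'.map _
  have hMR0 : M ≤ R0 := by
    have h1 : IsPGroup r (M.subgroupOf X) := (hW.to_le hMW).comap_subtype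
    have h2 : M.subgroupOf X ≤ P := h1.le_sylow_of_normal P
    intro x hx
    exact ⟨⟨x, hMX hx⟩, h2 hx, rfl⟩
  set R : Subgroup G := W ⊔ R0 with hR
  have hRp : IsPGroup r R := hW.to_sup_of_normal_left hR0p
  have hRX : W ⊔ X = ⊤ := by rw [sup_comm, hsup]
  have hWX : W.relIndex X = W.index := by
    have h2 : W.relIndex (W ⊔ X) = W.relIndex X := Subgroup.relIndex_sup_left X W
    rw [← h2, hRX, Subgroup.relIndex_top_right]
  have hWR0 : W.relIndex R = W.relIndex R0 := Subgroup.relIndex_sup_left R0 W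
  have hMX' : M.relIndex X = W.relIndex X := by
    rw [← Subgroup.inf_relIndex_right W X]
    congr 1
    exact le_antisymm (le_inf hMW hMX) fun x hx => hinf x hx.2 hx.1
  have hMR' : M.relIndex R0 = W.relIndex R0 := by
    rw [← Subgroup.inf_relIndex_right W R0]
    congr 1
    exact le_antisymm (le_inf hMW hMR0) fun x hx => hinf x (hR0X hx.2) hx.1
  have hidx : R.index = R0.relIndex X := by
    have h1 := Subgroup.relIndex_mul_index (le_sup_left : W ≤ R)
    have h2 := Subgroup.relIndex_mul_relIndex M R0 X hMR0 hR0X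
    rw [hWR0, ← hWX, ← hMX', ← hMR', ← h2] at h1
    exact mul_left_cancel₀ Subgroup.index_ne_zero_of_finite h1
  have hr : ¬ r ∣ R.index := by
    have h3 : R0.relIndex X = (P : Subgroup X).index := by
      rw [hR0, Subgroup.relIndex, Subgroup.subgroupOf,
        Subgroup.comap_map_eq_self_of_injective X.subtype_injective]
    rw [hidx, h3]
    exact P.not_dvd_index
  set W' : Subgroup R := W.subgroupOf R with hW'
  set M' : Subgroup R := M.subgroupOf R with hM'
  haveI : W'.Normal := inferInstance
  haveI : M'.Normal := inferInstance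
  set S : Subgroup R := ⁅W', ⊤⁆ ⊔ M' with hS
  haveI : S.Normal := inferInstance
  -- `S` is a proper part of `W`
  have hSW : ¬ W' ≤ S := by
    intro hle
    haveI : Group.IsNilpotent R := hRp.isNilpotent
    have hk : ∀ k, W' ≤ (⊤ : Subgroup R).lowerCentralSeries k ⊔ M' := by
      intro k
      induction k with
      | zero => rw [Subgroup.lowerCentralSeries_zero, top_sup_eq]; exact le_top
      | succ k ih =>
        refine hle.trans (sup_le ?_ le_sup_right)
        refine (Subgroup.commutator_mono ih le_rfl).trans ?_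
        rw [Subgroup.commutator_le]
        intro a ha b hb
        rw [← SetLike.mem_coe, Subgroup.mul_normal] at ha
        obtain ⟨c, hc, m, hm, rfl⟩ := ha
        have e : ⁅c * m, b⁆ = c * (m * (b * m⁻¹ * b⁻¹)) * c⁻¹ * ⁅c, b⁆ := by
          simp only [commutatorElement_def]; group
        rw [e]
        refine Subgroup.mul_mem _ (Subgroup.mem_sup_right ?_) (Subgroup.mem_sup_left ?_)
        · exact ‹M'.Normal›.conj_mem _ (M'.mul_mem hm (‹M'.Normal›.conj_mem _ (M'.inv_mem hm) b)) c
        · rw [Subgroup.lowerCentralSeries_succ]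
          exact Subgroup.commutator_mem_commutator hc hb
    obtain ⟨n, hn⟩ := Subgroup.nilpotent_iff_lowerCentralSeries.1 ‹Group.IsNilpotent R›
    have h1 := hk n
    rw [hn, bot_sup_eq] at h1
    exact hne fun x hx => h1 (x := ⟨x, le_sup_left (b := R0) hx⟩) hx
  set U : Subgroup R := S ⊔ R0.subgroupOf R with hU
  have hWUR : W' ⊔ U = ⊤ := by
    rw [eq_top_iff]
    intro x _
    have hx' : (x : G) ∈ (W : Set G) * (R0 : Set G) := by
      rw [← Subgroup.normal_mul]; exact x.2
    obtain ⟨w, hw, z, hz, hwz⟩ := hx'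
    have e : x = ⟨w, le_sup_left (b := R0) hw⟩ * ⟨z, le_sup_right (a := W) hz⟩ := Subtype.ext hwz.symm
    rw [e]
    exact Subgroup.mul_mem _ (Subgroup.mem_sup_left hw)
      (Subgroup.mem_sup_right (Subgroup.mem_sup_right hz))
  have hUn : U.Normal := by
    refine Subgroup.normalizer_eq_top_iff.1 (eq_top_iff.2 ?_)
    rw [← hWUR]
    refine sup_le ?_ Subgroup.le_normalizer
    intro w hw
    rw [Subgroup.mem_normalizer_iff]
    have hconj : ∀ w ∈ W', ∀ u ∈ U, w * u * w⁻¹ ∈ U := by
      intro w hw u hu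
      rw [show w * u * w⁻¹ = ⁅w, u⁆ * u by simp [commutatorElement_def]]
      exact U.mul_mem (Subgroup.mem_sup_left (Subgroup.mem_sup_left
        (Subgroup.commutator_mem_commutator hw (Subgroup.mem_top u)))) hu
    intro u
    refine ⟨hconj w hw u, fun h => ?_⟩
    have := hconj w⁻¹ (W'.inv_mem hw) _ h
    simpa [mul_assoc] using this
  have hcU : commutator R ≤ U := by
    haveI := hUn
    refine (Subgroup.Normal.quotient_commutative_iff_commutator_le).1 ?_
    refine ⟨⟨fun a b => ?_⟩⟩
    obtain ⟨a, rfl⟩ := QuotientGroup.mk'_surjective U a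
    obtain ⟨b, rfl⟩ := QuotientGroup.mk'_surjective U b
    have hW : ∀ x : R, ∃ w ∈ W', QuotientGroup.mk' U x = QuotientGroup.mk' U w := by
      intro x
      have hx : x ∈ (W' : Set R) * (U : Set R) := by
        rw [← Subgroup.normal_mul, hWUR]; trivial
      obtain ⟨w, hw, u, hu, rfl⟩ := hx
      exact ⟨w, hw, by rw [map_mul, QuotientGroup.mk'_apply U u, (QuotientGroup.eq_one_iff u).2 hu, mul_one]⟩
    obtain ⟨v, hv, ha⟩ := hW a
    obtain ⟨v', hv', hb⟩ := hW b
    rw [ha, hb, ← commutatorElement_eq_one_iff_mul_comm, ← map_commutatorElement,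
      QuotientGroup.mk'_apply, QuotientGroup.eq_one_iff]
    exact Subgroup.mem_sup_left (Subgroup.mem_sup_right
      (hWW (Subgroup.commutator_mem_commutator (G := G) hv hv')))
  have hWR : ¬ W' ≤ commutator R := by
    intro hle
    refine hSW fun x hx => ?_
    have hxU := hle.trans hcU hx
    rw [hU, ← SetLike.mem_coe, Subgroup.normal_mul] at hxU
    obtain ⟨s, hs, z, hz, rfl⟩ := hxU
    have hsW : s ∈ W' := by
      have : S ≤ W' := sup_le (Subgroup.commutator_le_left _ _) (fun m hm => hMW hm)
      exact this hs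
    have hzW : (z : G) ∈ W := by
      have := W'.mul_mem (W'.inv_mem hsW) hx
      rwa [inv_mul_cancel_left] at this
    exact S.mul_mem hs (Subgroup.mem_sup_right (hinf _ (hR0X hz) hzW))
  haveI := Fintype.ofFinite R
  obtain ⟨l, w, hw, hl⟩ := exists_linChar_nontrivial hWR
  exact ⟨R, l, w, hr, le_sup_left, hw, hl⟩

/-- If every degree over `[N, N]` is `g` and every nonlinear degree of `N` is divisible by the
prime `q`, which is prime to the index, then `N` is metabelian. -/
theorem relative : ∀ (n : ℕ) (G : Type u) [Group G] [Fintype G], Nat.card G = n →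
    Group.IsSolvable G → ∀ (N : Subgroup G) [N.Normal] (q g : ℕ), q.Prime →
    Nat.Coprime N.index q →
    (∀ θ : IrrCharacter N, charDegree (θ : N → ℂ) = 1 ∨ q ∣ charDegree (θ : N → ℂ)) →
    (∀ χ : IrrCharacter G, ¬ ⁅N, N⁆ ≤ charKer (χ : G → ℂ) → charDegree (χ : G → ℂ) = g) →
    ⁅⁅N, N⁆, ⁅N, N⁆⁆ = (⊥ : Subgroup G) := by
  intro n
  induction n using Nat.strong_induction_on with
  | _ n ih =>
  intro G _ _ hn hsolv N _ q g hq hidx hdeg hg
  classical
  subst hn
  haveI := hsolv
  haveI := Fact.mk hq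
  haveI := Fintype.ofFinite N
  by_contra hne
  set W : Subgroup G := ⁅N, N⁆ with hWdef
  set M : Subgroup G := ⁅W, W⁆ with hMdef
  have hMne : M ≠ ⊥ := hne
  haveI : W.Normal := inferInstance
  haveI : M.Normal := inferInstance
  haveI := Fintype.ofFinite W
  haveI := Fintype.ofFinite M
  have hWN : W ≤ N := Subgroup.commutator_le_left N N
  have hMW : M ≤ W := Subgroup.commutator_le_left W W
  -- every nontrivial normal subgroup inside `N` contains `M`
  have hmin : ∀ R : Subgroup G, R.Normal → R ≠ ⊥ → R ≤ N → M ≤ R := by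
    intro R hR hRne hRN
    haveI := hR
    haveI := Fintype.ofFinite (G ⧸ R)
    set π := QuotientGroup.mk' R with hπ
    have hπs : Function.Surjective π := QuotientGroup.mk'_surjective R
    haveI : (N.map π).Normal := ‹N.Normal›.map π hπs
    haveI := Fintype.ofFinite (N.map π)
    haveI : Group.IsSolvable (G ⧸ R) := Group.isSolvable_of_surjective hπs
    have hlt : Nat.card (G ⧸ R) < Nat.card G := by
      rw [R.card_eq_card_quotient_mul_card_subgroup]
      exact lt_mul_of_one_lt_right Nat.card_pos ((Subgroup.one_lt_card_iff_ne_bot R).2 hRne)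
    have hidx' : Nat.Coprime (N.map π).index q := by
      rw [Subgroup.index_map_eq _ hπs (by rwa [hπ, QuotientGroup.ker_mk'])]
      exact hidx
    have h := ih _ hlt (G ⧸ R) rfl inferInstance (N.map π) q g hq hidx'
      (fun θ => by
        let f : N →* N.map π := (π.comp N.subtype).codRestrict _ fun x => ⟨x, x.2, rfl⟩
        have hf : Function.Surjective f := by
          rintro ⟨_, x, hx, rfl⟩
          exact ⟨⟨x, hx⟩, rfl⟩
        have h1 := hdeg ⟨_, isIrrCharacter_comp θ.2 f hf⟩
        rwa [show charDegree ((⟨_, isIrrCharacter_comp θ.2 f hf⟩ : IrrCharacter N) : N → ℂ) =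
          charDegree (θ : N.map π → ℂ) from charDegree_eq_of_map_one (by
            show (θ : N.map π → ℂ) (f 1) = _
            rw [map_one, coe_charDegree])] at h1)
      (fun χ hχ => by
        rw [← charDegree_inflate R χ]
        refine hg _ fun hle => hχ ?_
        rw [← Subgroup.map_commutator, Subgroup.map_le_iff_le_comap]
        intro x hx
        refine (mem_charKer_iff (isCharacter_coe χ)).2 ?_
        have := map_eq_map_one_of_mem_charKer (hle hx)
        rwa [inflate_apply, inflate_apply, QuotientGroup.mk_one] at this)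
    rw [← Subgroup.map_commutator, ← Subgroup.map_commutator, Subgroup.map_eq_bot_iff,
      QuotientGroup.ker_mk'] at h
    exact h
  -- `M` is abelian
  have hMab : ∀ x ∈ M, ∀ y ∈ M, x * y = y * x := by
    have h1 : ⁅M, M⁆ = (⊥ : Subgroup G) := by
      by_contra h
      have h2 : M ≤ ⁅M, M⁆ := hmin _ inferInstance h
        ((Subgroup.commutator_le_left M M).trans (hMW.trans hWN))
      have hk : ∀ k : ℕ, M ≤ derivedSeries G k := by
        intro k
        induction k with
        | zero => exact le_top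
        | succ k ih' => exact h2.trans (Subgroup.commutator_mono ih' ih')
      obtain ⟨k, hk'⟩ := hsolv.solvable
      exact hMne (eq_bot_iff.2 ((hk k).trans hk'.le))
    intro x hx y hy
    exact commutatorElement_eq_one_iff_mul_comm.1
      (Subgroup.mem_bot.1 (h1 ▸ Subgroup.commutator_mem_commutator hx hy))
  haveI : IsMulCommutative M := ⟨⟨fun x y => Subtype.ext (hMab x x.2 y y.2)⟩⟩
  -- characters over a character of `N` or `M` not killing `W`
  have hWker : ∀ (H : Subgroup G) [Fintype H] (θ : IrrCharacter H) (χ : IrrCharacter G),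
      mult (fun h : H => (χ : G → ℂ) h) θ ≠ 0 → (∃ h : H, (h : G) ∈ W ∧ h ∉ charKer (θ : H → ℂ)) →
      charDegree (χ : G → ℂ) = g := by
    intro H _ θ χ hm ⟨h, hh, hθ⟩
    exact hg χ fun hle => hθ (mem_charKer_constituent χ θ hm (hle hh))
  -- `W` centralizes `M`
  have hMcent : ∀ w ∈ W, ∀ m ∈ M, w * m = m * w := by
    intro w hw m hm
    set m' : M := ⟨w⁻¹ * m * w, by simpa using ‹M.Normal›.conj_mem m hm w⁻¹⟩ with hm'
    have hconj : IsConj m' (⟨m, hm⟩ : M) := isConj_of_forall_eq fun θ => by
      by_cases hθ : ∀ x : M, x ∈ charKer (θ : M → ℂ)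
      · rw [map_eq_map_one_of_mem_charKer (hθ _), map_eq_map_one_of_mem_charKer (hθ ⟨m, hm⟩)]
      push Not at hθ
      obtain ⟨x, hx⟩ := hθ
      obtain ⟨χ, hχ⟩ := IsaacsPassman.exists_over M θ
      have hχg := hWker M θ χ hχ ⟨x, hMW x.2, hx⟩
      have hle : W ≤ inertia M (θ : M → ℂ) := le_of_constituents _ _ fun η hη _ => by
        by_contra hnle
        have := hg η hnle
        have := inertia_index_le χ θ hχ
        omega
      exact mem_inertia_iff_forall.1 (hle hw) m' ⟨m, hm⟩ (by simp [hm', mul_assoc]) |>.symm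
    obtain ⟨c, hc⟩ := isConj_iff.1 hconj
    have he : (m' : G) = m := by
      have h1 : (c : G) * m' * (c : G)⁻¹ = m := congrArg Subtype.val hc
      rwa [hMab c c.2 m' m'.2, mul_inv_cancel_right] at h1
    calc w * m = w * (w⁻¹ * m * w) := by rw [show w⁻¹ * m * w = m from he]
      _ = m * w := by group
  have hnil : Group.IsNilpotent W :=
    ⟨2, eq_top_iff.2 fun x _ => by
      rw [Subgroup.mem_upperCentralSeries_succ_iff]
      intro y
      rw [Subgroup.upperCentralSeries_one, Subgroup.mem_center_iff]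
      intro z
      have hc : ((x * y * x⁻¹ * y⁻¹ : W) : G) ∈ M := by
        have := Subgroup.commutator_mem_commutator x.2 y.2
        simpa [commutatorElement_def] using this
      exact Subtype.ext (hMcent z z.2 _ hc)⟩
  obtain ⟨r, hr, hrM⟩ := Nat.exists_prime_and_dvd (n := Nat.card M) fun h =>
    hMne (Subgroup.card_eq_one.1 h)
  haveI := Fact.mk hr
  have hWr : IsPGroup r W := by
    refine IsPGroup.of_card (n := (Nat.card W).primeFactorsList.length)
      (Nat.eq_prime_pow_of_unique_prime_dvd Nat.card_pos.ne' fun {s} hs hsW => ?_)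
    by_contra hsr
    haveI := Fact.mk hs
    obtain ⟨S⟩ : Nonempty (Sylow s W) := inferInstance
    have hSn : (S : Subgroup W).Normal :=
      ((Group.isNilpotent_of_finite_tfae (G := W)).out 0 3 rfl rfl).1 hnil s ⟨hs⟩ S
    haveI : (S : Subgroup W).Characteristic := S.characteristic_of_normal hSn
    haveI : ((S : Subgroup W).map W.subtype).Normal := ConjAct.normal_of_characteristic_of_normal
    have hle : M ≤ (S : Subgroup W).map W.subtype :=
      hmin _ inferInstance (fun h => S.ne_bot_of_dvd_card hsW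
        ((Subgroup.map_eq_bot_iff_of_injective _ W.subtype_injective).1 h))
        ((Subgroup.map_subtype_le _).trans hWN)
    obtain ⟨x, hx⟩ := exists_prime_orderOf_dvd_card' r hrM
    obtain ⟨k, hk⟩ := IsPGroup.iff_orderOf.1 (S.isPGroup'.map W.subtype) ⟨(x : G), hle x.2⟩
    rw [Subgroup.orderOf_mk, Subgroup.orderOf_coe, hx] at hk
    exact hsr ((Nat.prime_dvd_prime_iff_eq hr hs).1 (hr.dvd_of_dvd_pow (n := k) (dvd_of_eq hk))).symm
  -- a nonlinear character of `W`
  have hrg : r ∣ g := by
    obtain ⟨θ, hθ⟩ : ∃ θ : IrrCharacter W, charDegree (θ : W → ℂ) ≠ 1 := by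
      by_contra h
      push Not at h
      refine hMne ?_
      rw [hMdef, ← Subgroup.map_subtype_commutator W,
        commutator_eq_bot_iff.2 fun χ => (charDegree_eq_one_iff χ).1 (h χ), Subgroup.map_bot]
    obtain ⟨χ, hχ⟩ := IsaacsPassman.exists_over W θ
    have hχg : charDegree (χ : G → ℂ) = g := by
      refine hWker W θ χ hχ ?_
      by_contra h
      push Not at h
      refine hθ ((charDegree_eq_one_iff θ).2 ((commutator_le_charKer_iff θ).1 fun x _ => h x x.2))
    obtain ⟨i, hi⟩ := IsPGroup.iff_card.1 hWr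
    obtain ⟨j, -, hj⟩ := (Nat.dvd_prime_pow hr).1 (hi ▸ charDegree_dvd_card θ)
    rcases j with _ | j
    · exact absurd (by simpa using hj) hθ
    rw [← hχg]
    exact (Dvd.intro_left _ (pow_succ r j).symm).trans (hj ▸ charDegree_dvd_of_mult χ θ hχ)
  have hlinker : ∀ θ : IrrCharacter N, W.subgroupOf N ≤ charKer (θ : N → ℂ) →
      charDegree (θ : N → ℂ) = 1 := fun θ h => (charDegree_eq_one_iff θ).2
    ((commutator_le_charKer_iff θ).1 (le_trans (fun x hx => by
      have : (x : G) ∈ (commutator N).map N.subtype := ⟨x, hx, rfl⟩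
      rwa [Subgroup.map_subtype_commutator] at this) h))
  by_cases hrq : r = q
  · -- the case `r = q`
    subst hrq
    obtain ⟨L, hLn, hLc, k, hLk⟩ := Chars.Apps.exists_normal_complement_of_dvd (p := r) (G := N)
      fun θ hθ => (hdeg θ).resolve_left hθ
    haveI := hLn
    have hLW : ∀ x : N, x ∈ L → (x : G) ∈ W → x = 1 := by
      intro x hxL hxW
      obtain ⟨i, hi⟩ := IsPGroup.iff_orderOf.1 hWr ⟨(x : G), hxW⟩
      rw [Subgroup.orderOf_mk, Subgroup.orderOf_coe] at hi
      have h1 : orderOf x ∣ Nat.card L := by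
        rw [← Subgroup.orderOf_mk x hxL]
        exact orderOf_dvd_natCard _
      rw [hi] at h1
      have h2 := Nat.eq_one_of_dvd_coprimes (hLc.pow_right i) h1 dvd_rfl
      rw [← orderOf_eq_one_iff, hi, h2]
    have hLZ : L ≤ Subgroup.center N := by
      intro x hx
      rw [Subgroup.mem_center_iff]
      intro y
      have h1 : (⁅y, x⁆ : N) = 1 := hLW _
        (by rw [commutatorElement_def]; exact L.mul_mem (hLn.conj_mem x hx y) (L.inv_mem hx))
        (Subgroup.commutator_mem_commutator (G := G) y.2 x.2)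
      exact commutatorElement_eq_one_iff_mul_comm.1 h1
    have hex : ∀ θ : IrrCharacter N, charDegree (θ : N → ℂ) ≠ 1 →
        ∃ i, charDegree (θ : N → ℂ) = r ^ i ∧ r ^ i ∣ g ∧ g ∣ r ^ i * N.index := by
      intro θ hθ
      obtain ⟨i, -, hi⟩ := (Nat.dvd_prime_pow hr).1 (hLk ▸ charDegree_dvd_index_central θ L hLZ)
      obtain ⟨χ, hχ⟩ := IsaacsPassman.exists_over N θ
      have hχg : charDegree (χ : G → ℂ) = g := hWker N θ χ hχ (by
        by_contra h
        push Not at h
        exact hθ (hlinker θ fun x hx => h x hx))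
      refine ⟨i, hi, ?_, ?_⟩ <;> rw [← hχg, ← hi]
      · exact charDegree_dvd_of_mult χ θ hχ
      · exact charDegree_dvd_mul_index χ θ hχ
    have hD : ∃ m, TwoDegrees.Degrees N m := by
      by_cases h0 : ∃ θ : IrrCharacter N, charDegree (θ : N → ℂ) ≠ 1
      · obtain ⟨θ, hθ⟩ := h0
        obtain ⟨i, hi, hi1, hi2⟩ := hex θ hθ
        refine ⟨r ^ i, fun θ' => ?_⟩
        by_cases h1 : charDegree (θ' : N → ℂ) = 1
        · exact Or.inl h1
        obtain ⟨j, hj, hj1, hj2⟩ := hex θ' h1
        right
        rw [hj]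
        exact Nat.dvd_antisymm ((Nat.Coprime.pow_left j hidx.symm).dvd_of_dvd_mul_right (hj1.trans hi2))
          ((Nat.Coprime.pow_left i hidx.symm).dvd_of_dvd_mul_right (hi1.trans hj2))
      · push Not at h0
        exact ⟨1, fun θ => Or.inl (h0 θ)⟩
    obtain ⟨m, hm⟩ := hD
    exact hne (metabelian_of_degrees N hm)
  -- the case `r ≠ q`
  obtain ⟨P⟩ : Nonempty (Sylow q N) := inferInstance
  set Q : Subgroup G := (P : Subgroup N).map N.subtype with hQdef
  have hQN : Q ≤ N := Subgroup.map_subtype_le _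
  have hQq : IsPGroup q Q := P.isPGroup'.map _
  have hQW : ∀ x ∈ Q, x ∈ W → x = 1 := by
    intro x hxQ hxW
    obtain ⟨i, hi⟩ := IsPGroup.iff_orderOf.1 hWr ⟨x, hxW⟩
    obtain ⟨j, hj⟩ := IsPGroup.iff_orderOf.1 hQq ⟨x, hxQ⟩
    rw [Subgroup.orderOf_mk] at hi hj
    rw [← orderOf_eq_one_iff]
    exact Nat.eq_one_of_dvd_coprimes (Nat.Coprime.pow i j ((Nat.coprime_primes hr hq).2 hrq))
      (dvd_of_eq hi) (dvd_of_eq hj)
  set H0 : Subgroup G := Subgroup.normalizer Q with hH0
  have hfr : H0 ⊔ N = ⊤ := Sylow.normalizer_sup_eq_top P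
  have hQH0 : Q ≤ H0 := Subgroup.le_normalizer
  set K : Subgroup G := W ⊔ Q with hK
  have hKN : K ≤ N := sup_le hWN hQN
  haveI hKn : K.Normal := by
    refine Subgroup.normalizer_eq_top_iff.1 (eq_top_iff.2 ?_)
    rw [← hfr]
    have key : ∀ x : G, (∀ w ∈ Q, x * w * x⁻¹ ∈ K) → ∀ y ∈ K, x * y * x⁻¹ ∈ K := by
      intro x hx y hy
      have : K ≤ K.comap (MulAut.conj x).toMonoidHom := by
        refine sup_le (fun w hw => Subgroup.mem_sup_left (‹W.Normal›.conj_mem w hw x)) fun w hw => ?_
        simpa using hx w hw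
      simpa using this hy
    refine sup_le ?_ ?_
    · intro x hx
      have h1 : ∀ x ∈ H0, ∀ w ∈ Q, x * w * x⁻¹ ∈ K := fun x hx w hw =>
        Subgroup.mem_sup_right ((Subgroup.mem_normalizer_iff.1 hx w).1 hw)
      rw [Subgroup.mem_normalizer_iff]
      refine fun y => ⟨key x (h1 x hx) y, fun h => ?_⟩
      have := key x⁻¹ (h1 _ (H0.inv_mem hx)) _ h
      simpa [mul_assoc] using this
    · intro x hx
      have h1 : ∀ x ∈ N, ∀ w ∈ Q, x * w * x⁻¹ ∈ K := fun x hx w hw => by
        rw [show x * w * x⁻¹ = ⁅x, w⁆ * w by simp [commutatorElement_def]]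
        exact K.mul_mem (Subgroup.mem_sup_left (Subgroup.commutator_mem_commutator hx (hQN hw)))
          (Subgroup.mem_sup_right hw)
      rw [Subgroup.mem_normalizer_iff]
      refine fun y => ⟨key x (h1 x hx) y, fun h => ?_⟩
      have := key x⁻¹ (h1 _ (N.inv_mem hx)) _ h
      simpa [mul_assoc] using this
  have hfrK : H0 ⊔ W = ⊤ := by
    haveI := Fintype.ofFinite K
    have hidxK : ¬ q ∣ ((Q.subgroupOf K)).index := by
      intro h
      have h1 : Q.relIndex K ∣ Q.relIndex N := Dvd.intro _ (Subgroup.relIndex_mul_relIndex Q K N le_sup_right hKN)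
      have h2 : Q.relIndex N = (P : Subgroup N).index := by
        rw [hQdef, Subgroup.relIndex, Subgroup.subgroupOf,
          Subgroup.comap_map_eq_self_of_injective N.subtype_injective]
      exact P.not_dvd_index (h2 ▸ dvd_trans h h1)
    have hp : IsPGroup q (Q.subgroupOf K) := hQq.comap_subtype
    have hfr2 := Sylow.normalizer_sup_eq_top (hp.toSylow hidxK)
    rw [IsPGroup.toSylow_coe, Subgroup.subgroupOf_map_subtype, inf_of_le_left (le_sup_right : Q ≤ K)] at hfr2
    rw [eq_top_iff, ← hfr2]
    exact sup_le le_sup_left (sup_le le_sup_right (hQH0.trans le_sup_left))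
  -- `Kc = [W, Q] M` is all of `W`
  set Kc : Subgroup G := ⁅W, Q⁆ ⊔ M with hKc
  have hKcW : Kc ≤ W := sup_le (Subgroup.commutator_le_left _ _) hMW
  haveI hKcn : Kc.Normal := by
    refine Subgroup.normalizer_eq_top_iff.1 (eq_top_iff.2 ?_)
    rw [← hfrK]
    refine sup_le ?_ ?_
    · have key : ∀ x ∈ H0, ∀ y ∈ Kc, x * y * x⁻¹ ∈ Kc := by
        intro x hx
        have : Kc ≤ Kc.comap (MulAut.conj x).toMonoidHom := by
          refine sup_le ?_ fun m hm => Subgroup.mem_sup_right (‹M.Normal›.conj_mem m hm x)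
          rw [Subgroup.commutator_le]
          intro a ha b hb
          rw [Subgroup.mem_comap, map_commutatorElement]
          exact Subgroup.mem_sup_left (Subgroup.commutator_mem_commutator
            (by simpa using ‹W.Normal›.conj_mem a ha x)
            (by simpa using (Subgroup.mem_normalizer_iff.1 hx b).1 hb))
        intro y hy
        simpa using this hy
      intro x hx
      rw [Subgroup.mem_normalizer_iff]
      refine fun y => ⟨key x hx y, fun h => ?_⟩
      have := key x⁻¹ (H0.inv_mem hx) _ h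
      simpa [mul_assoc] using this
    · have key : ∀ x ∈ W, ∀ y ∈ Kc, x * y * x⁻¹ ∈ Kc := fun x hx y hy => by
        rw [show x * y * x⁻¹ = ⁅x, y⁆ * y by simp [commutatorElement_def]]
        exact Kc.mul_mem (Subgroup.mem_sup_right (Subgroup.commutator_mem_commutator hx (hKcW hy))) hy
      intro x hx
      rw [Subgroup.mem_normalizer_iff]
      refine fun y => ⟨key x hx y, fun h => ?_⟩
      have := key x⁻¹ (W.inv_mem hx) _ h
      simpa [mul_assoc] using this
  have hWKc : W ≤ Kc := by
    set K' : Subgroup N := Kc.subgroupOf N with hK'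
    haveI : K'.Normal := inferInstance
    haveI := Fintype.ofFinite (N ⧸ K')
    set π := QuotientGroup.mk' K' with hπ
    have hcent : (P : Subgroup N).map π ≤ Subgroup.center (N ⧸ K') := by
      rintro _ ⟨x, hx, rfl⟩
      rw [Subgroup.mem_center_iff]
      intro y
      obtain ⟨y, rfl⟩ := QuotientGroup.mk'_surjective K' y
      rw [← commutatorElement_eq_one_iff_mul_comm, ← map_commutatorElement, QuotientGroup.mk'_apply]
      set c : N := ⁅y, x⁆ with hc
      have hcW : (c : G) ∈ W := Subgroup.commutator_mem_commutator (G := G) y.2 x.2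
      obtain ⟨i, hi⟩ := IsPGroup.iff_orderOf.1 P.isPGroup' ⟨x, hx⟩
      rw [Subgroup.orderOf_mk] at hi
      have hcomm : Commute (c : N ⧸ K') (x : N ⧸ K') := by
        rw [commute_iff_eq, ← commutatorElement_eq_one_iff_mul_comm,
          ← QuotientGroup.mk'_apply, ← QuotientGroup.mk'_apply, ← map_commutatorElement,
          QuotientGroup.mk'_apply, QuotientGroup.eq_one_iff]
        exact Subgroup.mem_sup_left (Subgroup.commutator_mem_commutator (G := G) hcW ⟨x, hx, rfl⟩)
      have h1 : ((c : N ⧸ K') * (x : N ⧸ K')) ^ (q ^ i) = 1 := by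
        rw [← QuotientGroup.mk_mul, ← QuotientGroup.mk_pow,
          show c * x = y * x * y⁻¹ by rw [hc, commutatorElement_def]; group, conj_pow,
          ← hi, pow_orderOf_eq_one, mul_one, mul_inv_cancel, QuotientGroup.mk_one]
      rw [hcomm.mul_pow, ← QuotientGroup.mk_pow K' x, ← hi, pow_orderOf_eq_one, QuotientGroup.mk_one,
        mul_one, hi] at h1
      obtain ⟨j, hj⟩ := IsPGroup.iff_orderOf.1 hWr ⟨(c : G), hcW⟩
      rw [Subgroup.orderOf_mk, Subgroup.orderOf_coe] at hj
      have h2 : orderOf (c : N ⧸ K') ∣ r ^ j := hj ▸ orderOf_map_dvd π c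
      rw [← orderOf_eq_one_iff]
      exact Nat.eq_one_of_dvd_coprimes (Nat.Coprime.pow j i ((Nat.coprime_primes hr hq).2 hrq))
        h2 (orderOf_dvd_of_pow_eq_one h1)
    have hlin : commutator (N ⧸ K') = ⊥ := commutator_eq_bot_iff.2 fun ψ => by
      rw [← charDegree_eq_one_iff]
      have h1 := charDegree_dvd_index_central ψ _ hcent
      rcases hdeg (inflate K' ψ) with h | h
      · exact h
      · rw [charDegree_inflate] at h
        exact absurd ((dvd_trans h h1).trans
          ((P : Subgroup N).index_map_dvd (QuotientGroup.mk'_surjective _))) P.not_dvd_index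
    have h2 : commutator N ≤ K' := by
      rw [← QuotientGroup.ker_mk' K', ← Subgroup.map_eq_bot_iff, commutator_def,
        Subgroup.map_commutator, eq_bot_iff, ← hlin, commutator_def]
      exact Subgroup.commutator_mono le_top le_top
    rw [hWdef, ← Subgroup.map_subtype_commutator N]
    rintro _ ⟨x, hx, rfl⟩
    exact h2 hx
  -- fixed points of `Q` on `W` lie in `M`
  have hfix : ∀ w ∈ W, (∀ x ∈ Q, x * w = w * x) → w ∈ M := by
    intro w hw hwQ
    set M' : Subgroup W := M.subgroupOf W with hM'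
    haveI : M'.Normal := inferInstance
    letI : CommGroup (W ⧸ M') :=
      { (inferInstance : Group (W ⧸ M')) with
        mul_comm := fun a b => by
          obtain ⟨a, rfl⟩ := QuotientGroup.mk'_surjective M' a
          obtain ⟨b, rfl⟩ := QuotientGroup.mk'_surjective M' b
          refine commutatorElement_eq_one_iff_mul_comm.1 ?_
          rw [← map_commutatorElement, QuotientGroup.mk'_apply, QuotientGroup.eq_one_iff]
          exact Subgroup.commutator_mem_commutator (G := G) a.2 b.2 }
    haveI := Fintype.ofFinite Q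
    let cx : Q → W →* W ⧸ M' := fun x =>
      (QuotientGroup.mk' M').comp
        { toFun := fun v => ⟨(x : G) * v * (x : G)⁻¹, ‹W.Normal›.conj_mem _ v.2 _⟩
          map_one' := Subtype.ext (by simp)
          map_mul' := fun a b => Subtype.ext (by simp [mul_assoc]) }
    let f : W →* W ⧸ M' := ∏ x : Q, cx x
    have hker : Kc.subgroupOf W ≤ f.ker := by
      have hle : Kc ≤ f.ker.map W.subtype := by
        refine sup_le ?_ ?_
        · rw [Subgroup.commutator_le]
          intro a ha b hb
          let a' : W := ⟨a, ha⟩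
          let a'' : W := ⟨b * a * b⁻¹, ‹W.Normal›.conj_mem a ha b⟩
          refine ⟨a' * a''⁻¹, ?_, ?_⟩
          · rw [SetLike.mem_coe, MonoidHom.mem_ker, map_mul, map_inv, mul_inv_eq_one]
            show f a' = f a''
            simp only [f, MonoidHom.finset_prod_apply]
            refine (Fintype.prod_equiv (Equiv.mulRight (⟨b, hb⟩ : Q)) _ _ fun x => ?_).symm
            show QuotientGroup.mk' M' _ = QuotientGroup.mk' M' _
            congr 1
            apply Subtype.ext
            simp [a', a'', mul_assoc]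
          · simp [a', a'', commutatorElement_def, mul_assoc]
        · intro m hm
          refine ⟨⟨m, hMW hm⟩, ?_, rfl⟩
          rw [SetLike.mem_coe, MonoidHom.mem_ker]
          simp only [f, MonoidHom.finset_prod_apply]
          refine Finset.prod_eq_one fun x _ => ?_
          exact (QuotientGroup.eq_one_iff _).2 (‹M.Normal›.conj_mem m hm _)
      intro v hv
      obtain ⟨v', hv', he⟩ := hle hv
      rwa [← Subtype.ext (show (v' : G) = v from he)]
    have h1 : f ⟨w, hw⟩ = 1 := hker (hWKc hw)
    simp only [f, MonoidHom.finset_prod_apply] at h1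
    rw [Finset.prod_eq_pow_card (b := ((⟨w, hw⟩ : W) : W ⧸ M')) fun x _ => by
      show QuotientGroup.mk' M' _ = QuotientGroup.mk' M' _
      congr 1
      exact Subtype.ext (by show (x : G) * w * (x : G)⁻¹ = w; rw [hwQ x x.2, mul_inv_cancel_right])] at h1
    obtain ⟨i, hi⟩ := IsPGroup.iff_card.1 hQq
    rw [Finset.card_univ, ← Nat.card_eq_fintype_card, hi] at h1
    obtain ⟨j, hj⟩ := IsPGroup.iff_orderOf.1 hWr ⟨w, hw⟩
    have h2 : orderOf ((⟨w, hw⟩ : W) : W ⧸ M') ∣ r ^ j := hj ▸ orderOf_map_dvd (QuotientGroup.mk' M') _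
    have h3 := Nat.eq_one_of_dvd_coprimes (Nat.Coprime.pow j i ((Nat.coprime_primes hr hq).2 hrq))
        h2 (orderOf_dvd_of_pow_eq_one h1)
    rw [orderOf_eq_one_iff, QuotientGroup.eq_one_iff] at h3
    exact h3
  have hH0W : ∀ w ∈ H0, w ∈ W → w ∈ M := by
    intro w hwH hwW
    refine hfix w hwW fun x hx => ?_
    have h1 : ⁅w, x⁆ = 1 := hQW _
      (by rw [commutatorElement_def]
          exact Q.mul_mem ((Subgroup.mem_normalizer_iff.1 hwH x).1 hx) (Q.inv_mem hx))
      ((Subgroup.commutator_le_left W ⊤) (Subgroup.commutator_mem_commutator hwW (Subgroup.mem_top x)))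
    exact (commutatorElement_eq_one_iff_mul_comm.1 h1).symm
  have hWM : ¬ W ≤ M := by
    intro hle
    refine hMne ?_
    rw [eq_bot_iff]
    intro x hx
    have : ⁅W, W⁆ ≤ (⊥ : Subgroup G) := by
      rw [Subgroup.commutator_le]
      intro a ha b hb
      exact Subgroup.mem_bot.2 (commutatorElement_eq_one_iff_mul_comm.2 (hMab a (hle ha) b (hle hb)))
    exact this hx
  obtain ⟨R, l, w, hrR, -, hwW, hl⟩ := exists_sylow_linear (r := r) W M (M ⊔ H0) hWr le_rfl hMW hWM
    le_sup_left (by rw [sup_assoc, hfrK, sup_top_eq]) (fun x hx hxW => by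
      rw [← SetLike.mem_coe, Subgroup.normal_mul] at hx
      obtain ⟨m, hm, h, hh, rfl⟩ := hx
      refine M.mul_mem hm (hH0W h hh ?_)
      have := W.mul_mem (W.inv_mem (hMW hm)) hxW
      simpa using this)
  haveI := Fintype.ofFinite R
  have hwl : w ∉ charKer (linChar l : R → ℂ) := fun h => hl (Units.ext (by
    have := map_eq_map_one_of_mem_charKer h
    simpa [linChar_apply] using this))
  obtain ⟨s, hmem, hs⟩ := exists_eq_sum_mult
    (isCharacter_indFun R (isCharacter_coe (linChar l)))
  have h1 : (R.index : ℂ) =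
      (∑ χ ∈ s, mult (indFun R (linChar l : R → ℂ)) χ * charDegree (χ : G → ℂ) : ℕ) := by
    have h2 := congrFun hs 1
    rw [indFun_one_apply, linChar_map_one, mul_one, Finset.sum_apply] at h2
    rw [h2, Nat.cast_sum]
    refine Finset.sum_congr rfl fun χ _ => ?_
    rw [Nat.cast_mul, coe_charDegree]
    rfl
  refine hrR ?_
  rw [Nat.cast_inj.1 h1]
  refine Finset.dvd_sum fun χ hχ => Dvd.dvd.mul_left ?_ _
  have hm := (hmem χ).1 hχ
  rw [mult_indFun_irr] at hm
  rw [hWker R (linChar l) χ hm ⟨w, hwW, hwl⟩]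
  exact hrg

end CfsgLib.ThreeDegrees
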